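import Cfsg.Agent.H883.C7.Irr
import Mathlib.LinearAlgebra.GeneralLinearGroup.AlgEquiv
import Cfsg.Agent.H882.Ten.TI
import Cfsg.Agent.H883.C7.NIface
import Cfsg.Agent.H883.C7.Rad
import Cfsg.Agent.H889.C7.Free
set_option linter.all false

-- part: H900/C7/Lin
section
/-!
# Linear algebra in one slot: rank one operators, skew operators
-/

set_option autoImplicit false
set_option linter.unusedSectionVars false
set_option linter.unusedSimpArgs false

namespace Cfsg.Agent.H900.C7

open QuadraticMap hiding proj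
open Cfsg.Agent.LieClassical.OrthCore Cfsg.Agent.LieClassical.OrthTrans
open Cfsg.Agent.H882.Ten Cfsg.Agent.H883.C7

section one

variable {F : Type*} [Field F] {V : Type*} [AddCommGroup V] [Module F V] {q : QuadraticForm F V}

/-- The rank one operator `v ↦ B(a, v) b`. -/
def rk (q : QuadraticForm F V) (a b : V) : Module.End F V := (polarBilin q a).smulRight b

theorem rk_apply (a b v : V) : rk q a b v = polar q a v • b := rfl

theorem nn_eq_rk (a b : V) : nn q a b = rk q a b - rk q b a := rfl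

theorem om_eq_rk (a : V) : om q a = rk q a a := rfl

theorem rk_add_left (a a' b : V) : rk q (a + a') b = rk q a b + rk q a' b := by
  ext v; simp only [rk_apply, LinearMap.add_apply, polar_add_left, add_smul]

theorem rk_add_right (a b b' : V) : rk q a (b + b') = rk q a b + rk q a b' := by
  ext v; simp only [rk_apply, LinearMap.add_apply, smul_add]

theorem rk_smul_left (c : F) (a b : V) : rk q (c • a) b = c • rk q a b := by
  ext v; simp only [rk_apply, LinearMap.smul_apply, polar_smul_left, smul_smul, smul_eq_mul]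

theorem rk_smul_right (c : F) (a b : V) : rk q a (c • b) = c • rk q a b := by
  ext v; simp only [rk_apply, LinearMap.smul_apply, smul_smul]; rw [mul_comm]

theorem mul_rk (f : Module.End F V) (a b : V) : f * rk q a b = rk q a (f b) := by
  ext v; simp only [Module.End.mul_apply, rk_apply, map_smul]

theorem rk_mul_rk (a b a' b' : V) : rk q a b * rk q a' b' = polar q a b' • rk q a' b := by
  ext v
  simp only [Module.End.mul_apply, rk_apply, LinearMap.smul_apply, polar_smul_right, smul_smul, smul_eq_mul]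
  rw [mul_comm]

theorem nn_add_left (a a' b : V) : nn q (a + a') b = nn q a b + nn q a' b := by
  rw [nn_eq_rk, nn_eq_rk, nn_eq_rk, rk_add_left, rk_add_right]; abel

theorem nn_add_right (a b b' : V) : nn q a (b + b') = nn q a b + nn q a b' := by
  rw [nn_eq_rk, nn_eq_rk, nn_eq_rk, rk_add_left, rk_add_right]; abel

theorem nn_smul_left (c : F) (a b : V) : nn q (c • a) b = c • nn q a b := by
  rw [nn_eq_rk, nn_eq_rk, rk_smul_left, rk_smul_right, smul_sub]

theorem nn_smul_right (c : F) (a b : V) : nn q a (c • b) = c • nn q a b := by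
  rw [nn_eq_rk, nn_eq_rk, rk_smul_left, rk_smul_right, smul_sub]

theorem nn_swap (a b : V) : nn q a b = - nn q b a := by
  rw [nn_eq_rk, nn_eq_rk]; abel

theorem nn_self (a : V) : nn q a a = 0 := by rw [nn_eq_rk, sub_self]

theorem nn_neg_right (a b : V) : nn q a (-b) = - nn q a b := by
  rw [← neg_one_smul F, nn_smul_right, neg_one_smul]

theorem nn_sub_right (a b b' : V) : nn q a (b - b') = nn q a b - nn q a b' := by
  rw [sub_eq_add_neg, nn_add_right, nn_neg_right, sub_eq_add_neg]

theorem nn_sub_left (a a' b : V) : nn q (a - a') b = nn q a b - nn q a' b := by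
  rw [nn_swap, nn_sub_right, nn_swap b a, nn_swap b a']; abel

/-- skew operators -/
def Skew (q : QuadraticForm F V) (x : Module.End F V) : Prop := ∀ u v, polar q (x u) v = - polar q u (x v)

theorem skew_nn (a b : V) : Skew q (nn q a b) := by
  intro u v
  simp only [nn_apply, polar_sub_left, polar_sub_right, polar_smul_left, polar_smul_right, smul_eq_mul]
  rw [polar_comm q u a, polar_comm q u b]
  ring

theorem Skew.zero : Skew q (0 : Module.End F V) := by
  intro u v
  simp

theorem Skew.add {x y : Module.End F V} (hx : Skew q x) (hy : Skew q y) : Skew q (x + y) := by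
  intro u v
  rw [LinearMap.add_apply, LinearMap.add_apply, polar_add_left, polar_add_right, hx, hy]
  ring

theorem Skew.smul (c : F) {x : Module.End F V} (hx : Skew q x) : Skew q (c • x) := by
  intro u v
  rw [LinearMap.smul_apply, LinearMap.smul_apply, polar_smul_left, polar_smul_right, hx, smul_eq_mul, smul_eq_mul]
  ring

theorem Skew.bracket {x y : Module.End F V} (hx : Skew q x) (hy : Skew q y) : Skew q (x * y - y * x) := by
  intro u v
  simp only [LinearMap.sub_apply, Module.End.mul_apply, polar_sub_left, polar_sub_right]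
  rw [hx, hy, hy, hx]
  ring

/-- conjugation by an isometry -/
theorem Skew.cj {x : Module.End F V} (hx : Skew q x) {g : V ≃ₗ[F] V} (hg : g ∈ O q) : Skew q (cj g x) := by
  intro u v
  rw [cj_apply, cj_apply]
  have h1 : ∀ u, g (g⁻¹ u) = u := fun u => LinearEquiv.apply_symm_apply g u
  conv_lhs => rw [← h1 v]
  conv_rhs => rw [← h1 u]
  rw [polar_map hg, polar_map hg, hx]

theorem nn_bracket (x : Module.End F V) (hx : Skew q x) (a b : V) :
    x * nn q a b - nn q a b * x = nn q (x a) b + nn q a (x b) := by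
  ext v
  simp only [LinearMap.sub_apply, LinearMap.add_apply, Module.End.mul_apply, nn_apply, map_sub, map_smul]
  rw [hx, hx]
  have h1 : ∀ c d, polar q c (x d) = - polar q (x c) d := fun c d => by rw [hx, neg_neg]
  rw [h1 a, h1 b]
  module

/-- `om` for singular vectors generates everything. -/
theorem rk_of_om (hd : 3 ≤ Module.finrank F V) (hQ : Nondeg q) {x y : V} (hyp : Hyp q x y) {P : Module.End F V → Prop}
    (hadd : ∀ a b, P a → P b → P (a + b)) (hsmul : ∀ (c : F) a, P a → P (c • a))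
    (hmul : ∀ a b, P a → P b → P (a * b)) (hom : ∀ w, w ≠ 0 → q w = 0 → P (om q w)) (a b : V) : P (rk q a b) := by
  have h0 : P 0 := by
    have := hsmul 0 _ (hom x hyp.left_ne hyp.left)
    rwa [zero_smul] at this
  have hom' : ∀ w, q w = 0 → P (om q w) := by
    intro w hw
    by_cases h : w = 0
    · have : om q w = 0 := by
        ext v
        rw [om_apply, h, smul_zero, LinearMap.zero_apply]
      rw [this]; exact h0
    · exact hom w h hw
  have h1 : ∀ w w', q w = 0 → q w' = 0 → polar q w w' ≠ 0 → P (rk q w' w) := by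
    intro w w' hw hw' hne
    have h2 := hsmul (polar q w w')⁻¹ _ (hmul _ _ (hom' w hw) (hom' w' hw'))
    rw [om_eq_rk, om_eq_rk, rk_mul_rk, smul_smul, inv_mul_cancel₀ hne, one_smul] at h2
    exact h2
  have h2 : ∀ w, w ≠ 0 → q w = 0 → ∀ v, P (rk q v w) := by
    intro w hw0 hw v
    obtain ⟨w', hyp'⟩ := LieClassical.OrthTrans.exists_hyp hQ hw hw0
    refine op_ind hyp' (P := fun v => P (rk q v w)) (fun a c ha hc => ?_) (fun c => ?_) (fun a ha hne => ?_) v
    · rw [rk_add_left]; exact hadd _ _ ha hc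
    · rw [rk_smul_left]; exact hsmul _ _ (hom' w hw)
    · exact h1 w a hw ha hne
  refine op_ind hyp (P := fun b => P (rk q a b)) (fun b c hb hc => ?_) (fun c => ?_) (fun b hb hne => ?_) b
  · rw [rk_add_right]; exact hadd _ _ hb hc
  · rw [rk_smul_right]; exact hsmul _ _ (h2 x hyp.left_ne hyp.left a)
  · refine h2 b ?_ hb a
    rintro rfl
    exact hne (polar_zero_right q x)

/-- A skew operator from singular vectors and nonsingular orthogonal vectors. -/
theorem nn_of_sing (h2 : (2 : F) ≠ 0) (hd : 3 ≤ Module.finrank F V) (hQ : Nondeg q) {x y : V} (hyp : Hyp q x y)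
    {P : Module.End F V → Prop}
    (hadd : ∀ a b, P a → P b → P (a + b)) (hsmul : ∀ (c : F) a, P a → P (c • a))
    (hP : ∀ w y, w ≠ 0 → q w = 0 → polar q w y = 0 → q y ≠ 0 → P (nn q w y)) (a b : V) : P (nn q a b) := by
  have hsub : ∀ a b, P a → P b → P (a - b) := by
    intro a b ha hb
    rw [sub_eq_add_neg, ← neg_one_smul F b]
    exact hadd _ _ ha (hsmul _ _ hb)
  -- step 1
  have s1 : ∀ w y, w ≠ 0 → q w = 0 → polar q w y = 0 → P (nn q w y) := by
    intro w y hw0 hw hy
    by_cases hqy : q y = 0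
    swap
    · exact hP w y hw0 hw hy hqy
    obtain ⟨w', hyp'⟩ := LieClassical.OrthTrans.exists_hyp hQ hw hw0
    obtain ⟨z, hz1, hz2, hz3⟩ := exists_nonsing_perp hQ hd hyp'
    by_cases h : q (y + z) = 0
    · have h3 : q (y - z) ≠ 0 := by
        have e1 : q (y + z) = q z + polar q y z := by rw [Q_add, hqy, zero_add]
        have e2 : q (y - z) = q z - polar q y z := by
          rw [sub_eq_add_neg, Q_add, QuadraticMap.map_neg, hqy, polar_neg_right]
          ring
        rw [e2]
        rw [e1] at h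
        intro h4
        have : 2 * q z = 0 := by linear_combination h + h4
        exact mul_ne_zero h2 hz3 this
      have e : nn q w y = nn q w (y - z) + nn q w z := by rw [← nn_add_right, sub_add_cancel]
      rw [e]
      exact hadd _ _ (hP w _ hw0 hw (by rw [polar_sub_right, hy, hz1, sub_zero]) h3) (hP w z hw0 hw hz1 hz3)
    · have e : nn q w y = nn q w (y + z) - nn q w z := by rw [← nn_sub_right, add_sub_cancel_right]
      rw [e]
      exact hsub _ _ (hP w _ hw0 hw (by rw [polar_add_right, hy, hz1, add_zero]) h) (hP w z hw0 hw hz1 hz3)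
  -- step 2
  have s2 : ∀ w w', Hyp q w w' → P (nn q w w') := by
    intro w w' hyp'
    obtain ⟨z, hz1, hz2, hz3⟩ := exists_nonsing_perp hQ hd hyp'
    have hs := sing_vec hyp' hz1 hz2
    have hu0 : w + z - q z • w' ≠ 0 := by
      intro h
      have := congrArg (polar q w') h
      rw [polar_sub_right, polar_add_right, polar_smul_right, hyp'.pair', hz2, hyp'.polar_right, polar_zero_right] at this
      simp at this
    have h3 := s1 (w + z - q z • w') (z - (2 * q z) • w') hu0 hs (by
      simp only [polar_sub_left, polar_add_left, polar_smul_left, polar_sub_right, polar_smul_right, hz1, hz2,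
        hyp'.pair, polar_self', hyp'.polar_right, smul_eq_mul, polar_comm q z w', hyp'.right]
      ring)
    have e : nn q (w + z - q z • w') (z - (2 * q z) • w') =
        nn q w z - (2 * q z) • nn q w w' + q z • nn q w' z := by
      rw [nn_sub_right, nn_sub_left, nn_sub_left, nn_add_left, nn_add_left, nn_smul_right, nn_smul_right,
        nn_smul_right, nn_smul_left, nn_smul_left, nn_self, nn_self, nn_swap z w']
      module
    rw [e] at h3
    have h4 : P ((2 * q z) • nn q w w') := by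
      have e2 : (2 * q z) • nn q w w' = nn q w z + q z • nn q w' z -
          (nn q w z - (2 * q z) • nn q w w' + q z • nn q w' z) := by abel
      rw [e2]
      exact hsub _ _ (hadd _ _ (s1 w z hyp'.left_ne hyp'.left hz1)
        (hsmul _ _ (s1 w' z hyp'.right_ne hyp'.right hz2))) h3
    have h5 := hsmul (2 * q z)⁻¹ _ h4
    rwa [smul_smul, inv_mul_cancel₀ (mul_ne_zero h2 hz3), one_smul] at h5
  -- step 3
  have s3 : ∀ w b, w ≠ 0 → q w = 0 → P (nn q w b) := by
    intro w b hw0 hw
    obtain ⟨w', hyp'⟩ := LieClassical.OrthTrans.exists_hyp hQ hw hw0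
    have e : nn q w b = polar q w b • nn q w w' + nn q w (b - polar q w b • w') := by
      rw [← nn_smul_right, ← nn_add_right, add_sub_cancel]
    rw [e]
    exact hadd _ _ (hsmul _ _ (s2 w w' hyp')) (s1 w _ hw0 hw (by
      rw [polar_sub_right, polar_smul_right, hyp'.pair, smul_eq_mul, mul_one, sub_self]))
  refine op_ind hyp (P := fun a => P (nn q a b)) (fun a c ha hc => ?_) (fun c => ?_) (fun a ha hne => ?_) a
  · rw [nn_add_left]; exact hadd _ _ ha hc
  · rw [nn_smul_left]; exact hsmul _ _ (s3 x b hyp.left_ne hyp.left)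
  · refine s3 a b ?_ ha
    rintro rfl
    exact hne (polar_zero_right q x)

end one

section coord

variable {F : Type*} [Field F] {κ : Type*} [Fintype κ] [DecidableEq κ] {q : QuadraticForm F (κ → F)}

theorem dual_expand {d : κ → (κ → F)} (hd : ∀ b (x : κ → F), polar q x (d b) = x b) (v : κ → F) :
    ∑ b, polar q v (d b) • (Pi.single b (1 : F) : κ → F) = v := by
  simp only [hd]
  funext a
  rw [Finset.sum_apply]
  simp only [Pi.smul_apply, smul_eq_mul, Pi.single_apply, mul_ite, mul_one, mul_zero]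
  rw [Finset.sum_ite_eq Finset.univ a]
  simp

theorem dual_expand' (hq : Nondeg q) {d : κ → (κ → F)} (hd : ∀ b (x : κ → F), polar q x (d b) = x b) (v : κ → F) :
    ∑ b, polar q (Pi.single b (1 : F) : κ → F) v • d b = v := by
  rw [← sub_eq_zero]
  refine hq _ fun y => ?_
  rw [polar_sub_left]
  have h1 : polar q (∑ b, polar q (Pi.single b (1 : F) : κ → F) v • d b) y =
      ∑ b, polar q (Pi.single b (1 : F) : κ → F) v * polar q (d b) y := by
    have : polar q (∑ b, polar q (Pi.single b (1 : F) : κ → F) v • d b) y =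
        (polarBilin q).flip y (∑ b, polar q (Pi.single b (1 : F) : κ → F) v • d b) := rfl
    rw [this, map_sum]
    refine Finset.sum_congr rfl fun b _ => ?_
    rw [map_smul]; rfl
  have h2 : polar q v y = ∑ b, polar q (Pi.single b (1 : F) : κ → F) v * polar q (d b) y := by
    conv_lhs => rw [← dual_expand hd y]
    have : polar q v (∑ b, polar q y (d b) • (Pi.single b (1 : F) : κ → F)) =
        polarBilin q v (∑ b, polar q y (d b) • (Pi.single b (1 : F) : κ → F)) := rfl
    rw [this, map_sum]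
    refine Finset.sum_congr rfl fun b _ => ?_
    rw [map_smul, smul_eq_mul, polarBilin_apply_apply, polar_comm q v, polar_comm q y, mul_comm]
  rw [h1, h2, sub_self]

/-- The rank one operators span. -/
theorem rk_ind (hq : Nondeg q) {P : Module.End F (κ → F) → Prop} (hadd : ∀ a b, P a → P b → P (a + b))
    (h0 : P 0) (hrk : ∀ a b, P (rk q a b)) (f : Module.End F (κ → F)) : P f := by
  obtain ⟨d, hd⟩ := exists_dual hq
  have e : f = ∑ b, rk q (d b) (f (Pi.single b 1)) := by
    refine LinearMap.ext fun v => ?_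
    rw [LinearMap.sum_apply]
    conv_lhs => rw [← dual_expand hd v]
    rw [map_sum]
    refine Finset.sum_congr rfl fun b _ => ?_
    rw [map_smul, rk_apply, polar_comm q v]
  rw [e]
  exact Finset.sum_induction _ P hadd h0 fun b _ => hrk _ _

/-- The operators `v ∧ v'` span the skew operators. -/
theorem skew_ind (h2 : (2 : F) ≠ 0) (hq : Nondeg q) {P : Module.End F (κ → F) → Prop}
    (hadd : ∀ a b, P a → P b → P (a + b)) (hsmul : ∀ (c : F) a, P a → P (c • a))
    (hnn : ∀ a b, P (nn q a b)) {x : Module.End F (κ → F)} (hx : Skew q x) : P x := by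
  obtain ⟨d, hd⟩ := exists_dual hq
  have h0 : P 0 := by
    have := hsmul 0 _ (hnn 0 0)
    rwa [zero_smul] at this
  have e : (2 : F) • x = ∑ b, nn q (d b) (x (Pi.single b 1)) := by
    refine LinearMap.ext fun v => ?_
    rw [LinearMap.sum_apply, LinearMap.smul_apply, two_smul]
    simp only [nn_apply]
    rw [Finset.sum_sub_distrib]
    have e1 : ∑ b, polar q (d b) v • x (Pi.single b 1) = x v := by
      conv_rhs => rw [← dual_expand hd v]
      rw [map_sum]
      refine Finset.sum_congr rfl fun b _ => ?_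
      rw [map_smul, polar_comm q v]
    have e2 : ∑ b, polar q (x (Pi.single b 1)) v • d b = - x v := by
      conv_rhs => rw [← dual_expand' hq hd (x v), ← Finset.sum_neg_distrib]
      refine Finset.sum_congr rfl fun b _ => ?_
      rw [hx, neg_smul]
    rw [e1, e2, sub_neg_eq_add]
  have e' : x = (2 : F)⁻¹ • ∑ b, nn q (d b) (x (Pi.single b 1)) := by
    rw [← e, smul_smul, inv_mul_cancel₀ h2, one_smul]
  rw [e']
  exact hsmul _ _ (Finset.sum_induction _ P hadd h0 fun b _ => hnn _ _)

/-- Everything from `om`. -/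
theorem om_ind (hq : Nondeg q) (hd : 3 ≤ Fintype.card κ) {x y : κ → F} (hyp : Hyp q x y)
    {P : Module.End F (κ → F) → Prop}
    (hadd : ∀ a b, P a → P b → P (a + b)) (hsmul : ∀ (c : F) a, P a → P (c • a))
    (hmul : ∀ a b, P a → P b → P (a * b)) (hom : ∀ w, w ≠ 0 → q w = 0 → P (om q w)) (f : Module.End F (κ → F)) :
    P f := by
  have h1 := rk_of_om (by rw [Module.finrank_fintype_fun_eq_card]; exact hd) hq hyp hadd hsmul hmul hom
  refine rk_ind hq hadd ?_ h1 f
  have := hsmul 0 _ (h1 0 0)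
  rwa [zero_smul] at this

/-- The skew operators from `w ∧ y`. -/
theorem skew_ind' (h2 : (2 : F) ≠ 0) (hq : Nondeg q) (hd : 3 ≤ Fintype.card κ) {x y : κ → F} (hyp : Hyp q x y)
    {P : Module.End F (κ → F) → Prop}
    (hadd : ∀ a b, P a → P b → P (a + b)) (hsmul : ∀ (c : F) a, P a → P (c • a))
    (hP : ∀ w y, w ≠ 0 → q w = 0 → polar q w y = 0 → q y ≠ 0 → P (nn q w y)) {f : Module.End F (κ → F)}
    (hf : Skew q f) : P f :=
  skew_ind h2 hq hadd hsmul (nn_of_sing h2 (by rw [Module.finrank_fintype_fun_eq_card]; exact hd) hq hyp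
    hadd hsmul hP) hf

end coord

end Cfsg.Agent.H900.C7
end

-- part: H900/C7/Car
section
/-!
# Elements carrying a slot algebra to a slot algebra
-/

set_option autoImplicit false
set_option linter.unusedSectionVars false
set_option linter.unusedSimpArgs false
set_option linter.unusedVariables false

namespace Cfsg.Agent.H900.C7

open QuadraticMap hiding proj
open Cfsg.Agent.LieClassical.OrthCore Cfsg.Agent.LieClassical.OrthTrans
open Cfsg.Agent.H882.Ten Cfsg.Agent.H883.C7

section cj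

variable {F : Type*} [Field F] {V : Type*} [AddCommGroup V] [Module F V]

theorem cj_inv_cj (g : V ≃ₗ[F] V) (a : Module.End F V) : cj g⁻¹ (cj g a) = a := by
  rw [cj_cj, inv_mul_cancel, one_cj]

theorem cj_cj_inv (g : V ≃ₗ[F] V) (a : Module.End F V) : cj g (cj g⁻¹ a) = a := by
  rw [cj_cj, mul_inv_cancel, one_cj]

theorem cj_inj (g : V ≃ₗ[F] V) {a b : Module.End F V} (h : cj g a = cj g b) : a = b := by
  rw [← cj_inv_cj g a, h, cj_inv_cj]

/-- `cj g` as a linear map -/
def cjL (g : V ≃ₗ[F] V) : Module.End F V →ₗ[F] Module.End F V where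
  toFun := cj g
  map_add' := cj_add' g
  map_smul' := cj_smul' g

theorem cjL_apply (g : V ≃ₗ[F] V) (a : Module.End F V) : cjL g a = cj g a := rfl

theorem cj_zero' (g : V ≃ₗ[F] V) : cj g (0 : Module.End F V) = 0 := (cjL g).map_zero

theorem cj_self (g : V ≃ₗ[F] V) : cj g (g : Module.End F V) = g := by
  rw [cj_eq_iff]

theorem cj_toEnd (g h : V ≃ₗ[F] V) : cj g (h : Module.End F V) = ((g * h * g⁻¹ : V ≃ₗ[F] V) : Module.End F V) := rfl

theorem toEnd_mul (g h : V ≃ₗ[F] V) : ((g * h : V ≃ₗ[F] V) : Module.End F V) = (g : Module.End F V) * h := rfl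

theorem toEnd_inv_mul (g : V ≃ₗ[F] V) : ((g⁻¹ : V ≃ₗ[F] V) : Module.End F V) * (g : Module.End F V) = 1 := by
  rw [← toEnd_mul, inv_mul_cancel]; rfl

theorem cj_eq_mul (g : V ≃ₗ[F] V) (a : Module.End F V) :
    cj g a = (g : Module.End F V) * a * ((g⁻¹ : V ≃ₗ[F] V) : Module.End F V) := rfl

theorem comm_cj {g : V ≃ₗ[F] V} {a b : Module.End F V} :
    cj g a * b = b * cj g a ↔ a * cj g⁻¹ b = cj g⁻¹ b * a := by
  constructor
  · intro h
    have := congrArg (cj g⁻¹) h
    rwa [cj_mul', cj_mul', cj_inv_cj] at this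
  · intro h
    have := congrArg (cj g) h
    rwa [cj_mul', cj_mul', cj_cj_inv] at this

end cj

variable {F : Type*} [Field F] {κ : Type*} [Fintype κ] [DecidableEq κ] {ι : Type*} [Fintype ι] [DecidableEq ι]
  {q : QuadraticForm F (κ → F)} {M : Subgroup (((ι → κ) → F) ≃ₗ[F] ((ι → κ) → F))}

theorem carries_iff {g : ((ι → κ) → F) ≃ₗ[F] ((ι → κ) → F)} {i j : ι} :
    Carries g i j ↔ ∀ f : Module.End F (κ → F), ∃ f', cj g (sl i f) = sl j f' := by
  constructor
  · intro h f
    obtain ⟨f', hf'⟩ := h f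
    exact ⟨f', (cj_eq_iff _ _ _).2 (LinearMap.ext fun v => hf' v)⟩
  · intro h f
    obtain ⟨f', hf'⟩ := h f
    exact ⟨f', fun v => LinearMap.congr_fun ((cj_eq_iff _ _ _).1 hf') v⟩

/-- The isomorphism is inner. -/
theorem carries_inner {x : κ → F} (hx : x ≠ 0) {g : ((ι → κ) → F) ≃ₗ[F] ((ι → κ) → F)} {i j : ι}
    (h : Carries g i j) :
    ∃ T : (κ → F) ≃ₗ[F] (κ → F), ∀ f : Module.End F (κ → F), cj g (sl i f) = sl j (cj T f) := by
  rw [carries_iff] at h
  have hinj : Function.Injective (slA (F := F) (κ := κ) j).toLinearMap := fun f f' hf => sl_inj hx hf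
  obtain ⟨ρ, hρ⟩ := (slA (F := F) (κ := κ) j).toLinearMap.exists_leftInverse_of_injective
    (LinearMap.ker_eq_bot.2 hinj)
  have hρ' : ∀ f : Module.End F (κ → F), ρ (sl j f) = f := fun f => LinearMap.congr_fun hρ f
  let θ : Module.End F (κ → F) →ₗ[F] Module.End F (κ → F) :=
    ρ ∘ₗ cjL g ∘ₗ (slA (F := F) (κ := κ) i).toLinearMap
  have hθ : ∀ f, cj g (sl i f) = sl j (θ f) := by
    intro f
    obtain ⟨f', hf'⟩ := h f
    have : θ f = ρ (cj g (sl i f)) := rfl
    rw [this, hf', hρ']
  let Θ : Module.End F (κ → F) →ₐ[F] Module.End F (κ → F) := AlgHom.ofLinearMap θ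
    (sl_inj hx (i := j) (by rw [← hθ, sl_one, cj_one', sl_one]))
    (fun f f' => sl_inj hx (i := j) (by rw [← hθ, sl_mul, cj_mul', hθ, hθ, sl_mul]))
  have hΘinj : Function.Injective Θ := by
    intro f f' hf
    have h1 : sl j (θ f) = sl j (θ f') := congrArg _ hf
    rw [← hθ, ← hθ] at h1
    exact sl_inj hx (cj_inj g h1)
  have hΘsurj : Function.Surjective Θ := (LinearMap.injective_iff_surjective (f := θ)).1 hΘinj
  obtain ⟨T, hT⟩ := (AlgEquiv.ofBijective Θ ⟨hΘinj, hΘsurj⟩).eq_linearEquivConjAlgEquiv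
  refine ⟨T, fun f => ?_⟩
  rw [hθ]
  congr 1
  have h1 := DFunLike.congr_fun hT f
  exact h1

theorem carries_symm {x : κ → F} (hx : x ≠ 0) {g : ((ι → κ) → F) ≃ₗ[F] ((ι → κ) → F)} {i j : ι}
    (h : Carries g i j) : Carries g⁻¹ j i := by
  obtain ⟨T, hT⟩ := carries_inner hx h
  rw [carries_iff]
  intro f
  refine ⟨cj T⁻¹ f, ?_⟩
  have h1 := hT (cj T⁻¹ f)
  rw [cj_cj_inv] at h1
  rw [← h1, cj_inv_cj]

theorem carries_comp {g g' : ((ι → κ) → F) ≃ₗ[F] ((ι → κ) → F)} {i j l : ι}
    (h : Carries g i j) (h' : Carries g' j l) : Carries (g' * g) i l := by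
  rw [carries_iff] at h h' ⊢
  intro f
  obtain ⟨f', hf'⟩ := h f
  obtain ⟨f'', hf''⟩ := h' f'
  exact ⟨f'', by rw [← cj_cj, hf', hf'']⟩

theorem carries_one (i : ι) : Carries (1 : ((ι → κ) → F) ≃ₗ[F] ((ι → κ) → F)) i i := by
  rw [carries_iff]
  exact fun f => ⟨f, one_cj _⟩

theorem carries_slE (i : ι) (s : (κ → F) ≃ₗ[F] (κ → F)) : Carries (slE (F := F) (κ := κ) i s) i i := by
  rw [carries_iff]
  intro f
  refine ⟨cj s f, ?_⟩
  rw [cj_eq_iff, slE_toEnd, ← sl_mul, ← sl_mul]
  congr 1
  exact toEnd_mul_eq s f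

theorem cj_slE (i : ι) (s : (κ → F) ≃ₗ[F] (κ → F)) (f : Module.End F (κ → F)) :
    cj (slE (F := F) (κ := κ) i s) (sl i f) = sl i (cj s f) := by
  rw [cj_eq_iff, slE_toEnd, ← sl_mul, ← sl_mul]
  congr 1
  exact toEnd_mul_eq s f

/-- rank one operators in a slot -/
theorem sl_smulRight (i : ι) (φ : (κ → F) →ₗ[F] F) (u : κ → F) (v : (ι → κ) → F) :
    sl i (φ.smulRight u) v = ten F κ i (cW (isTen F κ i) φ v) u := by
  have : sl i (φ.smulRight u) = (ten F κ i).flip u ∘ₗ cW (isTen F κ i) φ := by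
    refine ext_t (isTen F κ i) fun a w => ?_
    rw [LinearMap.comp_apply, sl_ten, cW_apply, LinearMap.flip_apply, map_smul, LinearMap.smul_apply]
    rw [LinearMap.smulRight_apply, map_smul]
  exact LinearMap.congr_fun this v

/-- An operator commuting with a slot algebra acts on the rest. -/
theorem exists_rest {x : κ → F} (hx : x ≠ 0) {j : ι} {Z : Module.End F ((ι → κ) → F)}
    (h : ∀ f : Module.End F (κ → F), Z * sl j f = sl j f * Z) :
    ∃ ρ : Module.End F (({l // l ≠ j} → κ) → F), ∀ a u, Z (ten F κ j a u) = ten F κ j (ρ a) u := by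
  obtain ⟨φ, hφ⟩ := Module.Projective.exists_dual_ne_zero F hx
  set ψ : (κ → F) →ₗ[F] F := (φ x)⁻¹ • φ with hψ
  have hψx : ψ x = 1 := by rw [hψ, LinearMap.smul_apply, smul_eq_mul, inv_mul_cancel₀ hφ]
  refine ⟨cW (isTen F κ j) ψ ∘ₗ Z ∘ₗ (ten F κ j).flip x, fun a u => ?_⟩
  have h1 := LinearMap.congr_fun (h (ψ.smulRight u)) (ten F κ j a x)
  rw [Module.End.mul_apply, Module.End.mul_apply, sl_smulRight, sl_smulRight, cW_apply, hψx, one_smul] at h1
  rw [h1]
  rfl

theorem carries_tm {x : κ → F} (hx : x ≠ 0) {g : ((ι → κ) → F) ≃ₗ[F] ((ι → κ) → F)} {j : ι} (h : Carries g j j) :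
    ∃ (α : (({l // l ≠ j} → κ) → F) ≃ₗ[F] (({l // l ≠ j} → κ) → F)) (β : (κ → F) ≃ₗ[F] (κ → F)),
      g = tm (isTen F κ j) α β := by
  obtain ⟨T, hT⟩ := carries_inner hx h
  set m : ((ι → κ) → F) ≃ₗ[F] ((ι → κ) → F) := g * (slE j T)⁻¹ with hm
  have hcomm : ∀ f : Module.End F (κ → F), (m : Module.End F ((ι → κ) → F)) * sl j f = sl j f * m := by
    intro f
    rw [← cj_eq_iff, hm, ← cj_cj]
    have h1 : cj (slE (F := F) (κ := κ) j T)⁻¹ (sl j f) = sl j (cj T⁻¹ f) := by
      rw [← map_inv, cj_slE]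
    rw [h1, hT, cj_cj_inv]
  obtain ⟨ρ, hρ⟩ := exists_rest hx hcomm
  have hinj : Function.Injective ρ := by
    intro a b hab
    have h1 : m (ten F κ j a x) = m (ten F κ j b x) := by
      have e1 := hρ a x
      have e2 := hρ b x
      rw [LinearEquiv.coe_coe] at e1 e2
      rw [e1, e2, hab]
    exact t_left_inj (isTen F κ j) hx (m.injective h1)
  refine ⟨LinearEquiv.ofBijective ρ ⟨hinj, LinearMap.injective_iff_surjective.1 hinj⟩, T, ?_⟩
  have hg : g = m * slE j T := by rw [hm, inv_mul_cancel_right]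
  rw [hg]
  refine ext_t' (isTen F κ j) fun a u => ?_
  rw [tm_apply, LinearEquiv.mul_apply, slE_ten]
  exact hρ a (T u)

/-- the stabiliser of a slot algebra -/
def NN {x : κ → F} (hx : x ≠ 0) (M : Subgroup (((ι → κ) → F) ≃ₗ[F] ((ι → κ) → F))) (j : ι) : Subgroup M where
  carrier := {n | Carries n.1 j j}
  mul_mem' := fun {a b} ha hb => carries_comp (g := b.1) (g' := a.1) hb ha
  one_mem' := carries_one j
  inv_mem' := fun {a} ha => carries_symm hx (g := a.1) ha

theorem mem_NN {x : κ → F} {hx : x ≠ 0} {j : ι} {n : M} : n ∈ NN hx M j ↔ Carries n.1 j j := Iff.rfl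

/-! ### (D) -/

theorem finrank_rest (i j : ι) : Module.finrank F (({l // l ≠ i} → κ) → F) =
    Module.finrank F (({l // l ≠ j} → κ) → F) := by
  rw [Module.finrank_fintype_fun_eq_card, Module.finrank_fintype_fun_eq_card, Fintype.card_fun, Fintype.card_fun,
    Fintype.card_subtype_compl, Fintype.card_subtype_compl, Fintype.card_subtype_eq, Fintype.card_subtype_eq]

/-- If `g` carries a rank one element of slot `i` to an element of slot `j` this also has rank one. -/
theorem rank_one {x : κ → F} (hx : x ≠ 0) {g : ((ι → κ) → F) ≃ₗ[F] ((ι → κ) → F)} {i j : ι}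
    {ψ : (κ → F) →ₗ[F] F} {w : κ → F} (hw0 : w ≠ 0) (hψ : ψ ≠ 0) {f : Module.End F (κ → F)}
    (h : cj g (sl i (ψ.smulRight w)) = sl j f) : ∃ w' : κ → F, w' ≠ 0 ∧ ∃ χ : (κ → F) →ₗ[F] F,
      f = χ.smulRight w' := by
  have hf0 : f ≠ 0 := by
    rintro rfl
    have h1 : sl j (0 : Module.End F (κ → F)) = 0 := map_zero (slA j)
    rw [h1] at h
    have h3 : sl i (ψ.smulRight w) = 0 := cj_inj g (by rw [h, cj_zero'])
    have h4 := sl_eq_zero hx h3
    apply hψ
    refine LinearMap.ext fun u => ?_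
    have h5 := LinearMap.congr_fun h4 u
    rw [LinearMap.smulRight_apply, LinearMap.zero_apply] at h5
    exact (smul_eq_zero.1 h5).resolve_right hw0
  obtain ⟨u₁, hu₁⟩ : ∃ u, f u ≠ 0 := by
    by_contra hcon
    push Not at hcon
    exact hf0 (LinearMap.ext hcon)
  set p := f u₁ with hp
  have key : ∀ u, ∃ c : F, f u = c • p := by
    intro u
    by_contra hcon
    push Not at hcon
    obtain ⟨φ, hφ⟩ := Module.Projective.exists_dual_ne_zero F hw0
    let Λ : ((({l // l ≠ j} → κ) → F) × (({l // l ≠ j} → κ) → F)) →ₗ[F] (({l // l ≠ i} → κ) → F) :=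
      cW (isTen F κ i) φ ∘ₗ ((g⁻¹ : ((ι → κ) → F) ≃ₗ[F] ((ι → κ) → F)) : Module.End F ((ι → κ) → F)) ∘ₗ
        ((ten F κ j).flip p).coprod ((ten F κ j).flip (f u))
    have hΛ : ∀ a b, Λ (a, b) = cW (isTen F κ i) φ (g⁻¹ (ten F κ j a p + ten F κ j b (f u))) := fun a b => rfl
    have himg : ∀ a b, ∃ c, g⁻¹ (ten F κ j a p + ten F κ j b (f u)) = ten F κ i c w := by
      intro a b
      have h1 : ten F κ j a p + ten F κ j b (f u) = sl j f (ten F κ j a u₁ + ten F κ j b u) := by
        rw [map_add, sl_ten, sl_ten]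
      rw [h1, ← h, cj_apply]
      have h2 : ∀ v, g⁻¹ (g v) = v := fun v => LinearEquiv.symm_apply_apply g v
      rw [h2, sl_smulRight]
      exact ⟨_, rfl⟩
    have hinj : Function.Injective Λ := by
      rw [← LinearMap.ker_eq_bot, LinearMap.ker_eq_bot']
      rintro ⟨a, b⟩ hab
      rw [hΛ] at hab
      obtain ⟨c, hc⟩ := himg a b
      rw [hc, cW_apply] at hab
      have hc0 : c = 0 := (smul_eq_zero.1 hab).resolve_left hφ
      rw [hc0, map_zero, LinearMap.zero_apply] at hc
      have h3 : ten F κ j a p + ten F κ j b (f u) = 0 := g⁻¹.injective (by rw [hc, map_zero])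
      -- apply a functional on the slot
      obtain ⟨χ, hχ1, hχ2⟩ := exists_ne_of_ne hcon
      have h4 := congrArg (cW (isTen F κ j) χ) h3
      rw [map_add, cW_apply, cW_apply, hχ1, zero_smul, zero_add, map_zero] at h4
      have hb : b = 0 := (smul_eq_zero.1 h4).resolve_left hχ2
      rw [hb, map_zero, LinearMap.zero_apply, add_zero] at h3
      have ha : a = 0 := eq_zero_of_t (isTen F κ j) h3 hu₁
      rw [ha, hb]; rfl
    have h5 := LinearMap.finrank_le_finrank_of_injective hinj
    rw [Module.finrank_prod, finrank_rest i j] at h5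
    have h6 : 0 < Module.finrank F (({l // l ≠ j} → κ) → F) := by
      rw [Module.finrank_fintype_fun_eq_card]
      obtain ⟨b, -⟩ := Function.ne_iff.1 hx
      exact Fintype.card_pos_iff.2 ⟨fun _ => b⟩
    omega
  obtain ⟨φ, hφ⟩ := Module.Projective.exists_dual_ne_zero F hu₁
  refine ⟨p, hu₁, (φ p)⁻¹ • (φ ∘ₗ f), LinearMap.ext fun u => ?_⟩
  obtain ⟨c, hc⟩ := key u
  rw [LinearMap.smulRight_apply, LinearMap.smul_apply, LinearMap.comp_apply, hc, map_smul, smul_eq_mul, smul_eq_mul,
    mul_comm c, ← mul_assoc, inv_mul_cancel₀ hφ, one_mul]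

theorem om_eq_smulRight (w : κ → F) : om q w = (polarBilin q w).smulRight w := rfl

theorem polarBilin_ne_zero (hq : Nondeg q) {w : κ → F} (hw0 : w ≠ 0) : polarBilin q w ≠ 0 := by
  intro h
  exact hw0 (hq w fun y => LinearMap.congr_fun h y)

/-- A multiple of `ω_w` in slot `i` going to slot `j`. -/
theorem carries_of_om (hq : Nondeg q) (hD : DProp q M) {g : ((ι → κ) → F) ≃ₗ[F] ((ι → κ) → F)} (hg : g ∈ M)
    {i j : ι} {w : κ → F} (hw0 : w ≠ 0) (hw : q w = 0) {f : Module.End F (κ → F)}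
    (h : cj g (sl i (om q w)) = sl j f) : Carries g i j := by
  obtain ⟨w', hw'0, χ, hχ⟩ := rank_one hw0 hw0 (polarBilin_ne_zero hq hw0) h
  obtain ⟨y, hyp⟩ := LieClassical.OrthTrans.exists_hyp hq hw hw0
  refine hD g hg i j w w' hw0 hw'0 hw fun a => ?_
  have h1 : g (ten F κ i a w) = cj g (sl i (om q w)) (g (ten F κ i a y)) := by
    rw [cj_apply]
    have h2 : g⁻¹ (g (ten F κ i a y)) = ten F κ i a y := LinearEquiv.symm_apply_apply g _
    rw [h2, sl_ten, om_apply, hyp.pair, one_smul]
  rw [h1, h, hχ, sl_smulRight]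
  exact ⟨_, rfl⟩

theorem siegel_sub_one_sq {w z : κ → F} (hw : q w = 0) (hz : polar q w z = 0) :
    (((siegel q w z hw hz : (κ → F) ≃ₗ[F] (κ → F)) : Module.End F (κ → F)) - 1) *
      (((siegel q w z hw hz : (κ → F) ≃ₗ[F] (κ → F)) : Module.End F (κ → F)) - 1) = (-(2 * q z)) • om q w := by
  have h2 : ((siegel q w z hw hz : (κ → F) ≃ₗ[F] (κ → F)) : Module.End F (κ → F)) - 1 = nn q w z - q z • om q w := by
    rw [siegel_eq hw hz]; abel
  rw [h2, mul_sub, sub_mul, sub_mul, nn_sq hw hz, mul_smul_comm, mul_smul_comm, smul_mul_assoc, smul_mul_assoc,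
    nn_om hw hz, om_nn hw hz, om_om hw]
  simp

/-- A Siegel element with nonsingular second vector going to slot `j`. -/
theorem carries_of_siegel (h2 : (2 : F) ≠ 0) (hq : Nondeg q) (hD : DProp q M)
    {g : ((ι → κ) → F) ≃ₗ[F] ((ι → κ) → F)} (hg : g ∈ M)
    {i j : ι} {w y : κ → F} (hw0 : w ≠ 0) (hw : q w = 0) (hy : polar q w y = 0) (hqy : q y ≠ 0)
    {f : Module.End F (κ → F)}
    (h : cj g (sl i (siegel q w y hw hy : (κ → F) ≃ₗ[F] (κ → F))) = sl j f) : Carries g i j := by
  have hc : -(2 * q y) ≠ 0 := neg_ne_zero.2 (mul_ne_zero h2 hqy)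
  have h1 : cj g (sl i ((-(2 * q y)) • om q w)) = sl j ((f - 1) * (f - 1)) := by
    rw [← siegel_sub_one_sq hw hy, sl_mul, cj_mul', sl_sub, cj_sub', h, sl_one, cj_one', sl_mul, sl_sub, sl_one]
  rw [sl_smul, cj_smul'] at h1
  refine carries_of_om hq hD hg hw0 hw (f := (-(2 * q y))⁻¹ • ((f - 1) * (f - 1))) ?_
  rw [sl_smul, ← h1, smul_smul, inv_mul_cancel₀ hc, one_smul]

/-- The version for `nn`. -/
theorem carries_of_nn (h2 : (2 : F) ≠ 0) (hq : Nondeg q) (hD : DProp q M)
    {g : ((ι → κ) → F) ≃ₗ[F] ((ι → κ) → F)} (hg : g ∈ M)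
    {i j : ι} {w y : κ → F} (hw0 : w ≠ 0) (hw : q w = 0) (hy : polar q w y = 0) (hqy : q y ≠ 0)
    {f : Module.End F (κ → F)} (h : cj g (sl i (nn q w y)) = sl j f) : Carries g i j := by
  have hc : -(2 * q y) ≠ 0 := neg_ne_zero.2 (mul_ne_zero h2 hqy)
  have h1 : cj g (sl i ((-(2 * q y)) • om q w)) = sl j (f * f) := by
    rw [← nn_sq hw hy, sl_mul, cj_mul', h, sl_mul]
  rw [sl_smul, cj_smul'] at h1
  refine carries_of_om hq hD hg hw0 hw (f := (-(2 * q y))⁻¹ • (f * f)) ?_
  rw [sl_smul, ← h1, smul_smul, inv_mul_cancel₀ hc, one_smul]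

/-- An element of `M` commuting with `ω_w` in slot `i` normalises the slot algebra. -/
theorem carries_of_comm (hq : Nondeg q) (hD : DProp q M) {g : ((ι → κ) → F) ≃ₗ[F] ((ι → κ) → F)} (hg : g ∈ M)
    {i : ι} {w : κ → F} (hw0 : w ≠ 0) (hw : q w = 0)
    (h : (g : Module.End F ((ι → κ) → F)) * sl i (om q w) = sl i (om q w) * g) : Carries g i i :=
  carries_of_om hq hD hg hw0 hw ((cj_eq_iff _ _ _).2 h)

end Cfsg.Agent.H900.C7
end

-- part: H900/C7/FixA
section
/-!
# Fixed vectors of `α ⊗ β` for unipotent isometries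
-/

set_option autoImplicit false
set_option linter.unusedSectionVars false
set_option linter.unusedSimpArgs false
set_option linter.unusedVariables false

namespace Cfsg.Agent.H900.C7

open QuadraticMap hiding proj
open Cfsg.Agent.LieClassical.OrthCore Cfsg.Agent.LieClassical.OrthTrans
open Cfsg.Agent.H882.Ten Cfsg.Agent.H883.C7

section one

variable {F : Type*} {W : Type*} [Field F] [AddCommGroup W] [Module F W] {QW : QuadraticForm F W}

/-- A unipotent isometry `≠ 1` moves a space of dimension at least two. -/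
theorem two_le_rank [FiniteDimensional F W] (h2 : (2 : F) ≠ 0) (hQ : Nondeg QW) {β : W ≃ₗ[F] W} (hβ : β ∈ O QW)
    (hne : β ≠ 1) (hnil : IsNilpotent ((β : Module.End F W) - 1)) :
    2 ≤ Module.finrank F (LinearMap.range ((β : Module.End F W) - 1)) := by
  by_contra hcon
  set ν : Module.End F W := (β : Module.End F W) - 1 with hν
  have hνa : ∀ v, ν v = β v - v := fun v => rfl
  obtain ⟨v₁, hv₁⟩ : ∃ v, ν v ≠ 0 := by
    by_contra h
    push Not at h
    apply hne
    ext v
    exact sub_eq_zero.1 (h v)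
  set a := ν v₁ with ha
  have hspan : ∀ v, ∃ c : F, ν v = c • a := by
    have h1 : Module.finrank F (LinearMap.range ν) = 1 := by
      have h3 : 0 < Module.finrank F (LinearMap.range ν) := by
        rw [Module.finrank_pos_iff_exists_ne_zero]
        exact ⟨⟨a, ⟨v₁, rfl⟩⟩, fun h => hv₁ (congrArg Subtype.val h)⟩
      omega
    intro v
    obtain ⟨c, hc⟩ := exists_smul_eq_of_finrank_eq_one h1 (x := ⟨a, ⟨v₁, rfl⟩⟩)
      (fun h => hv₁ (congrArg Subtype.val h)) ⟨ν v, ⟨v, rfl⟩⟩
    exact ⟨c, (congrArg Subtype.val hc).symm⟩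
  -- `ν a = 0`
  have hνaa : ν a = 0 := by
    obtain ⟨c, hc⟩ := hspan a
    obtain ⟨n, hn⟩ := hnil
    have h1 : ∀ m : ℕ, (ν ^ m) a = c ^ m • a := by
      intro m
      induction m with
      | zero => simp
      | succ m ih => rw [pow_succ', Module.End.mul_apply, ih, map_smul, hc, smul_smul, pow_succ]
    have h3 := h1 n
    rw [hn, LinearMap.zero_apply] at h3
    have h4 : c ^ n = 0 := (smul_eq_zero.1 h3.symm).resolve_right hv₁
    rw [hc, eq_zero_of_pow_eq_zero h4, zero_smul]
  have hiso : ∀ x y, polar QW (ν x) y + polar QW x (ν y) + polar QW (ν x) (ν y) = 0 := by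
    intro x y
    have h1 := polar_map hβ x y
    have e1 : β x = x + ν x := by rw [hνa]; abel
    have e2 : β y = y + ν y := by rw [hνa]; abel
    rw [e1, e2, polar_add_left, polar_add_right, polar_add_right] at h1
    linear_combination h1
  -- `a` is isotropic
  have haa : polar QW a a = 0 := by
    have h1 := hiso v₁ a
    rw [hνaa, polar_zero_right, polar_zero_right, add_zero, add_zero] at h1
    exact h1
  have hav : polar QW a v₁ = 0 := by
    have h1 := hiso v₁ v₁
    rw [← ha, haa, polar_comm QW v₁ a, add_zero] at h1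
    have h3 : 2 * polar QW a v₁ = 0 := by linear_combination h1
    exact (mul_eq_zero.1 h3).resolve_left h2
  apply hv₁
  refine hQ a fun y => ?_
  have h1 := hiso v₁ y
  obtain ⟨c, hc⟩ := hspan y
  rw [hc, ← ha, polar_smul_right, polar_smul_right, polar_comm QW v₁ a, hav, haa] at h1
  simpa using h1

/-- The fixed vectors are orthogonal to the moved space. -/
theorem polar_fix {β : W ≃ₗ[F] W} (hβ : β ∈ O QW) {y : W} (hy : β y = y) {x : W}
    (hx : x ∈ LinearMap.range ((β : Module.End F W) - 1)) : polar QW x y = 0 := by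
  obtain ⟨u, rfl⟩ := hx
  have : ((β : Module.End F W) - 1) u = β u - u := rfl
  rw [this, polar_sub_left]
  have h1 := polar_map hβ u y
  rw [hy] at h1
  rw [h1, sub_self]

theorem nakayama {ν : Module.End F W} (hν : IsNilpotent ν) {N : Submodule F W} (hN : ∀ x ∈ N, ν x ∈ N)
    (h : N ⊔ LinearMap.range ν = ⊤) : N = ⊤ := by
  have key : ∀ m : ℕ, N ⊔ LinearMap.range (ν ^ m) = ⊤ := by
    intro m
    induction m with
    | zero => rw [pow_zero, eq_top_iff]; exact le_sup_of_le_right fun x _ => ⟨x, rfl⟩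
    | succ m ih =>
      rw [eq_top_iff, ← ih]
      refine sup_le le_sup_left ?_
      rintro _ ⟨x, rfl⟩
      have hx : x ∈ N ⊔ LinearMap.range ν := by rw [h]; trivial
      obtain ⟨n, hn, _, ⟨u, rfl⟩, rfl⟩ := Submodule.mem_sup.1 hx
      rw [map_add]
      refine Submodule.add_mem _ (Submodule.mem_sup_left ?_) (Submodule.mem_sup_right ⟨u, ?_⟩)
      · have : ∀ k : ℕ, (ν ^ k) n ∈ N := by
          intro k
          induction k with
          | zero => exact hn
          | succ k ih => rw [pow_succ', Module.End.mul_apply]; exact hN _ ih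
        exact this m
      · rw [pow_succ, Module.End.mul_apply]
  obtain ⟨n, hn⟩ := hν
  have := key n
  rw [hn, LinearMap.range_zero, sup_bot_eq] at this
  exact this

end one

variable {F : Type*} {U : Type*} {W : Type*} {V : Type*} [Field F] [AddCommGroup U] [Module F U]
  [AddCommGroup W] [Module F W] [AddCommGroup V] [Module F V]
  {t : U →ₗ[F] W →ₗ[F] V} {QU : QuadraticForm F U} {QW : QuadraticForm F W} {Q : QuadraticForm F V}

theorem cw_add' (S : TSt t QU QW Q) (x y : W) (v : V) : S.cw (x + y) v = S.cw x v + S.cw y v := by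
  refine S.eq_of_polar fun u => ?_
  rw [polar_add_left, ← S.polar_cw, ← S.polar_cw, ← S.polar_cw, map_add, polar_add_right]

theorem cw_smul' (S : TSt t QU QW Q) (c : F) (x : W) (v : V) : S.cw (c • x) v = c • S.cw x v := by
  refine S.eq_of_polar fun u => ?_
  rw [polar_smul_left, ← S.polar_cw, ← S.polar_cw, map_smul, polar_smul_right]

/-- curried contraction -/
noncomputable def cwL (S : TSt t QU QW Q) : V →ₗ[F] W →ₗ[F] U :=
  LinearMap.mk₂ F (fun v x => S.cw x v) (fun v v' x => map_add _ _ _) (fun c v x => map_smul _ _ _)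
    (fun v x y => cw_add' S x y v) (fun c v x => cw_smul' S c x v)

theorem cwL_apply (S : TSt t QU QW Q) (v : V) (x : W) : cwL S v x = S.cw x v := rfl

theorem cw_tm (S : TSt t QU QW Q) {α : U ≃ₗ[F] U} {β : W ≃ₗ[F] W} (hβ : β ∈ O QW) (x : W) (v : V) :
    S.cw (β x) (tm S.ten α β v) = α (S.cw x v) := by
  have : S.cw (β x) ∘ₗ ((tm S.ten α β : V ≃ₗ[F] V) : V →ₗ[F] V) = (α : U →ₗ[F] U) ∘ₗ S.cw x := by
    refine ext_t S.ten fun u w => ?_
    rw [LinearMap.comp_apply, LinearMap.comp_apply, LinearEquiv.coe_coe, tm_apply, S.cw_t, S.cw_t, map_smul,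
      polar_map hβ]
    rfl
  exact LinearMap.congr_fun this v

theorem eq_zero_of_cw (S : TSt t QU QW Q) (hQ : Nondeg Q) {v : V} (h : ∀ x, S.cw x v = 0) : v = 0 := by
  refine hQ v fun y => ?_
  have : polarBilin Q v = 0 := by
    refine ext_t S.ten fun u w => ?_
    rw [polarBilin_apply_apply, S.polar_cw, h, polar_zero_left, LinearMap.zero_apply]
  exact LinearMap.congr_fun this y

/-- The fixed space. -/
def fx (x₀ : V ≃ₗ[F] V) : Submodule F V := LinearMap.ker ((x₀ : Module.End F V) - 1)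

theorem mem_fx {x₀ : V ≃ₗ[F] V} {v : V} : v ∈ fx x₀ ↔ x₀ v = v := by
  rw [fx, LinearMap.mem_ker]
  exact sub_eq_zero

/-- contraction of the fixed space with a complement -/
noncomputable def rhoC (S : TSt t QU QW Q) (x₀ : V ≃ₗ[F] V) (C : Submodule F W) : fx x₀ →ₗ[F] (C →ₗ[F] U) :=
  (LinearMap.lcomp F U C.subtype) ∘ₗ (cwL S) ∘ₗ (fx x₀).subtype

theorem rhoC_apply (S : TSt t QU QW Q) (x₀ : V ≃ₗ[F] V) (C : Submodule F W) (v : fx x₀) (c : C) :
    rhoC S x₀ C v c = S.cw c v.1 := rfl

theorem rhoC_injective (S : TSt t QU QW Q) (hQ : Nondeg Q) {α : U ≃ₗ[F] U} {β : W ≃ₗ[F] W} (hβ : β ∈ O QW)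
    (hnil : IsNilpotent ((β : Module.End F W) - 1)) {C : Submodule F W}
    (hC : C ⊔ LinearMap.range ((β : Module.End F W) - 1) = ⊤) :
    Function.Injective (rhoC S (tm S.ten α β) C) := by
  rw [← LinearMap.ker_eq_bot, LinearMap.ker_eq_bot']
  rintro ⟨v, hv⟩ h
  rw [mem_fx] at hv
  have h0 : ∀ c ∈ C, S.cw c v = 0 := fun c hc => LinearMap.congr_fun h ⟨c, hc⟩
  have hst : ∀ x, S.cw x v = 0 → S.cw (β x) v = 0 := by
    intro x hx
    have := cw_tm S (α := α) hβ x v
    rw [hv, hx, map_zero] at this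
    exact this
  have htop : LinearMap.ker (cwL S v) = ⊤ := by
    refine nakayama hnil ?_ ?_
    · intro x hx
      rw [LinearMap.mem_ker, cwL_apply] at hx ⊢
      have e : ((β : Module.End F W) - 1) x = β x + (-1 : F) • x := by
        rw [neg_one_smul]; exact sub_eq_add_neg _ _
      rw [e, cw_add', cw_smul', hx, hst x hx, smul_zero, add_zero]
    · rw [eq_top_iff, ← hC]
      exact sup_le_sup_right (fun c hc => h0 c hc) _
  have h3 : v = 0 := eq_zero_of_cw S hQ fun x => by
    have : x ∈ LinearMap.ker (cwL S v) := by rw [htop]; trivial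
    exact this
  exact Subtype.ext h3

/-- **`α ⊗ β` with both factors non-trivial and a large fixed space.** -/
theorem caseA [FiniteDimensional F U] [FiniteDimensional F W] [FiniteDimensional F V] [Nontrivial U]
    (S : TSt t QU QW Q) (hQ : Nondeg Q) {α : U ≃ₗ[F] U} {β : W ≃ₗ[F] W}
    (hβ : β ∈ O QW) (hnil : IsNilpotent ((β : Module.End F W) - 1)) (hα1 : α ≠ 1) (hβ1 : β ≠ 1)
    (hfix : Module.finrank F U * (Module.finrank F W - 2) ≤ Module.finrank F (fx (tm S.ten α β))) :
    Module.finrank F (LinearMap.range ((β : Module.End F W) - 1)) = 2 ∧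
      ∀ y, β y = y → y ∈ LinearMap.range ((β : Module.End F W) - 1) := by
  set D := LinearMap.range ((β : Module.End F W) - 1) with hD
  have h2D : 2 ≤ Module.finrank F D := two_le_rank S.two S.ndW hβ hβ1 hnil
  have hU : 0 < Module.finrank F U := Module.finrank_pos
  have key : ∀ C : Submodule F W, IsCompl C D → Module.finrank F D = 2 ∧
      Function.Surjective (rhoC S (tm S.ten α β) C) := by
    intro C hC
    have hinj := rhoC_injective S hQ (α := α) hβ hnil hC.sup_eq_top
    have h1 := LinearMap.finrank_le_finrank_of_injective hinj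
    rw [Module.finrank_linearMap] at h1
    have h3 := Submodule.finrank_add_eq_of_isCompl hC
    have h4 : Module.finrank F U * (Module.finrank F W - 2) ≤ Module.finrank F U * Module.finrank F C :=
      hfix.trans (h1.trans (le_of_eq (mul_comm _ _)))
    have h5 : Module.finrank F W - 2 ≤ Module.finrank F C := Nat.le_of_mul_le_mul_left h4 hU
    have h6 : Module.finrank F D = 2 := by omega
    refine ⟨h6, ?_⟩
    have h7 : Module.finrank F C = Module.finrank F W - 2 := by omega
    have h8 : Module.finrank F (fx (tm S.ten α β)) = Module.finrank F (C →ₗ[F] U) := by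
      rw [Module.finrank_linearMap]
      refine le_antisymm h1 ?_
      rw [h7, mul_comm]
      exact hfix
    exact (LinearMap.injective_iff_surjective_of_finrank_eq_finrank h8).1 hinj
  obtain ⟨C₀, hC₀⟩ := D.exists_isCompl
  refine ⟨(key C₀ hC₀.symm).1, fun y hy => ?_⟩
  by_contra hyD
  have hdis : Disjoint (Submodule.span F {y}) D := by
    rw [Submodule.disjoint_def]
    intro x hx hxD
    obtain ⟨c, rfl⟩ := Submodule.mem_span_singleton.1 hx
    by_contra hne
    have hc : c ≠ 0 := fun h => hne (by rw [h, zero_smul])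
    exact hyD ((D.smul_mem_iff hc).1 hxD)
  obtain ⟨C, hyC, hC⟩ := hdis.exists_isCompl
  have hyC' : y ∈ C := hyC (Submodule.mem_span_singleton_self y)
  have hsurj := (key C hC).2
  obtain ⟨a, ha⟩ : ∃ a, α a ≠ a := by
    by_contra h
    push Not at h
    exact hα1 (LinearEquiv.ext h)
  have hy0 : (⟨y, hyC'⟩ : C) ≠ 0 := by
    intro h
    have : y = 0 := congrArg Subtype.val h
    rw [this] at hyD
    exact hyD D.zero_mem
  obtain ⟨φ, hφ⟩ := Module.Projective.exists_dual_ne_zero F hy0
  obtain ⟨v, hv⟩ := hsurj ((φ.smulRight ((φ ⟨y, hyC'⟩)⁻¹ • a)))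
  have h1 := LinearMap.congr_fun hv ⟨y, hyC'⟩
  rw [rhoC_apply, LinearMap.smulRight_apply, smul_smul, mul_inv_cancel₀ hφ, one_smul] at h1
  have h3 := cw_tm S (α := α) hβ y v.1
  rw [hy, mem_fx.1 v.2] at h3
  apply ha
  have h4 : S.cw y v.1 = a := h1
  rw [h4] at h3
  exact h3.symm

/-- The case distinction on the dimension. -/
theorem caseA' [FiniteDimensional F U] [FiniteDimensional F W] [FiniteDimensional F V] [Nontrivial U]
    (S : TSt t QU QW Q) (hQ : Nondeg Q) {α : U ≃ₗ[F] U} {β : W ≃ₗ[F] W}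
    (hβ : β ∈ O QW) (hnil : IsNilpotent ((β : Module.End F W) - 1)) (hα1 : α ≠ 1) (hβ1 : β ≠ 1)
    (hk : 3 ≤ Module.finrank F W)
    (h4 : Module.finrank F W = 4 → ∀ w x, w ≠ 0 → QW w = 0 → QW x = 0 → polar QW w x = 0 → ∃ c : F, x = c • w)
    (hfix : Module.finrank F U * (Module.finrank F W - 2) ≤ Module.finrank F (fx (tm S.ten α β))) :
    Module.finrank F W = 3 ∧ Module.finrank F (LinearMap.range ((β : Module.End F W) - 1)) = 2 ∧
      ∀ y, β y = y → y ∈ LinearMap.range ((β : Module.End F W) - 1) := by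
  obtain ⟨hr, hle⟩ := caseA S hQ hβ hnil hα1 hβ1 hfix
  refine ⟨?_, hr, hle⟩
  have hrn := LinearMap.finrank_range_add_finrank_ker ((β : Module.End F W) - 1)
  have hker : ∀ y, y ∈ LinearMap.ker ((β : Module.End F W) - 1) ↔ β y = y := fun y => mem_fx
  have hkle : LinearMap.ker ((β : Module.End F W) - 1) ≤ LinearMap.range ((β : Module.End F W) - 1) :=
    fun y hy => hle y ((hker y).1 hy)
  have hf := Submodule.finrank_mono hkle
  have hiso : ∀ x ∈ LinearMap.ker ((β : Module.End F W) - 1), ∀ y ∈ LinearMap.ker ((β : Module.End F W) - 1),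
      polar QW x y = 0 := fun x hx y hy => polar_fix hβ ((hker y).1 hy) (hkle hx)
  by_contra hne
  have hk4 : Module.finrank F W = 4 := by omega
  have hkd : Module.finrank F (LinearMap.ker ((β : Module.End F W) - 1)) = 2 := by omega
  have hsing : ∀ x ∈ LinearMap.ker ((β : Module.End F W) - 1), QW x = 0 := fun x hx =>
    (Q_zero_iff S.two x).2 (hiso x hx x hx)
  obtain ⟨w, hw⟩ := Module.finrank_pos_iff_exists_ne_zero.1 (by rw [hkd]; norm_num :
    0 < Module.finrank F (LinearMap.ker ((β : Module.End F W) - 1)))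
  have h1 : Module.finrank F (LinearMap.ker ((β : Module.End F W) - 1)) ≤ 1 := by
    refine finrank_le_one w fun x => ?_
    obtain ⟨c, hc⟩ := h4 hk4 w.1 x.1 (fun h => hw (Subtype.ext h)) (hsing _ w.2) (hsing _ x.2) (hiso _ w.2 _ x.2)
    exact ⟨c, Subtype.ext hc.symm⟩
  omega

end Cfsg.Agent.H900.C7
end

-- part: H900/C7/Unip
section
/-!
# Unipotent isometries of the form `α ⊗ β`
-/

set_option autoImplicit false
set_option linter.unusedSectionVars false
set_option linter.unusedSimpArgs false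
set_option linter.unusedVariables false

namespace Cfsg.Agent.H900.C7

open QuadraticMap hiding proj
open Cfsg.Agent.LieClassical.OrthCore Cfsg.Agent.LieClassical.OrthTrans
open Cfsg.Agent.H882.Ten Cfsg.Agent.H883.C7

section one

variable {F : Type*} {V : Type*} [Field F] [AddCommGroup V] [Module F V]

theorem toEnd_pow (g : V ≃ₗ[F] V) (n : ℕ) : ((g ^ n : V ≃ₗ[F] V) : Module.End F V) = (g : Module.End F V) ^ n := by
  induction n with
  | zero => rfl
  | succ n ih => rw [pow_succ, pow_succ, toEnd_mul, ih]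

theorem toEnd_inj {g h : V ≃ₗ[F] V} (e : (g : Module.End F V) = h) : g = h :=
  LinearEquiv.ext fun v => LinearMap.congr_fun e v

theorem lpow_succ (g : V ≃ₗ[F] V) (n : ℕ) (a : V) : (g ^ (n + 1)) a = (g ^ n) (g a) := by
  rw [pow_succ]; rfl

theorem pow_eq_one_of_cube {p : ℕ} [Fact p.Prime] [CharP F p] (hp3 : 3 ≤ p) {g : V ≃ₗ[F] V}
    (h : ((g : Module.End F V) - 1) ^ 3 = 0) : g ^ p = 1 := by
  by_cases hV : Nontrivial V
  · have : CharP (Module.End F V) p := by
      exact charP_of_injective_algebraMap (algebraMap F (Module.End F V)).injective p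
    apply toEnd_inj
    rw [toEnd_pow]
    have h5 : ((g : Module.End F V) - 1) ^ p = (g : Module.End F V) ^ p - 1 := by
      have := sub_pow_char_of_commute (p := p) (x := (g : Module.End F V)) (y := 1) (Commute.one_right _)
      rwa [one_pow] at this
    have h6 : ((g : Module.End F V) - 1) ^ p = 0 := by
      obtain ⟨k, rfl⟩ := Nat.exists_eq_add_of_le hp3
      rw [pow_add, h, zero_mul]
    rw [h6] at h5
    exact sub_eq_zero.1 h5.symm
  · rw [not_nontrivial_iff_subsingleton] at hV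
    ext v
    exact Subsingleton.elim _ _

theorem nil_of_pow {p : ℕ} [Fact p.Prime] [CharP F p] {g : V ≃ₗ[F] V} (h : g ^ p = 1) :
    IsNilpotent ((g : Module.End F V) - 1) := by
  by_cases hV : Nontrivial V
  · have : CharP (Module.End F V) p := by
      exact charP_of_injective_algebraMap (algebraMap F (Module.End F V)).injective p
    refine ⟨p, ?_⟩
    have h5 : ((g : Module.End F V) - 1) ^ p = (g : Module.End F V) ^ p - 1 := by
      have := sub_pow_char_of_commute (p := p) (x := (g : Module.End F V)) (y := 1) (Commute.one_right _)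
      rwa [one_pow] at this
    rw [h5, ← toEnd_pow, h]
    exact sub_self _
  · rw [not_nontrivial_iff_subsingleton] at hV
    refine ⟨1, ?_⟩
    ext v
    exact Subsingleton.elim _ _

end one

section two

variable {F : Type*} {U : Type*} {W : Type*} {V : Type*} [Field F] [AddCommGroup U] [Module F U]
  [AddCommGroup W] [Module F W] [AddCommGroup V] [Module F V]
  {t : U →ₗ[F] W →ₗ[F] V} {QU : QuadraticForm F U} {QW : QuadraticForm F W} {Q : QuadraticForm F V}

theorem tm_pow (ht : IsTensorProduct t) (k : U ≃ₗ[F] U) (l : W ≃ₗ[F] W) (n : ℕ) :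
    tm ht k l ^ n = tm ht (k ^ n) (l ^ n) := by
  induction n with
  | zero => rw [pow_zero, pow_zero, pow_zero, tm_one]
  | succ n ih => rw [pow_succ, pow_succ, pow_succ, ih, tm_mul]

theorem scalar_of_tm_one (ht : IsTensorProduct t) [Nontrivial U] {k : U ≃ₗ[F] U} {l : W ≃ₗ[F] W}
    (h : tm ht k l = 1) : ∃ c : F, ∀ u, l u = c • u := by
  obtain ⟨a, ha⟩ := exists_ne (0 : U)
  refine scalar_of_all (l : W →ₗ[F] W) fun u => ?_
  by_contra hcon
  push Not at hcon
  obtain ⟨φ, hφ1, hφ2⟩ := exists_ne_of_ne hcon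
  have h1 : t (k a) (l u) = t a u := by rw [← tm_apply ht, h]; rfl
  have h3 := congrArg (cW ht φ) h1
  rw [cW_apply, cW_apply, hφ1, zero_smul] at h3
  have h4 : k a = 0 := (smul_eq_zero.1 h3).resolve_left hφ2
  exact ha (k.injective (by rw [h4, map_zero]))

/-- Normal form of unipotent isometries `k ⊗ l`. -/
theorem unip_form [Finite F] [Nontrivial U] [Nontrivial W] (S : TSt t QU QW Q) {k : U ≃ₗ[F] U} {l : W ≃ₗ[F] W}
    (hO : tm S.ten k l ∈ O Q) (hx : ((tm S.ten k l : Module.End F V) - 1) ^ 3 = 0) :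
    ∃ (α : U ≃ₗ[F] U) (β : W ≃ₗ[F] W), tm S.ten k l = tm S.ten α β ∧ α ∈ O QU ∧ β ∈ O QW ∧
      IsNilpotent ((α : Module.End F U) - 1) ∧ IsNilpotent ((β : Module.End F W) - 1) := by
  obtain ⟨p, hp⟩ := CharP.exists F
  have hpp : p.Prime := CharP.char_is_prime F p
  have : Fact p.Prime := ⟨hpp⟩
  have hp2 : p ≠ 2 := by
    rintro rfl
    apply S.two
    have := CharP.cast_eq_zero F 2
    exact_mod_cast this
  have hp3 : 3 ≤ p := by have := hpp.two_le; omega
  have hpow := pow_eq_one_of_cube hp3 hx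
  rw [tm_pow] at hpow
  obtain ⟨c, hc⟩ := scalar_of_tm_one S.ten hpow
  obtain ⟨w₀, hw₀⟩ := exists_ne (0 : W)
  have hc0 : c ≠ 0 := by
    rintro rfl
    have := hc w₀
    rw [zero_smul] at this
    exact hw₀ ((l ^ p).injective (by rw [this, map_zero]))
  have hkp : ∀ a, c • (k ^ p) a = a := by
    intro a
    have h1 : t ((k ^ p) a) ((l ^ p) w₀) = t a w₀ := by rw [← tm_apply S.ten, hpow]; rfl
    rw [hc, map_smul, ← LinearMap.smul_apply, ← map_smul] at h1
    exact t_left_inj S.ten hw₀ h1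
  have : PerfectRing F p := inferInstance
  obtain ⟨e, he⟩ := (PerfectRing.bijective_frobenius (R := F) (p := p)).2 c
  have he' : e ^ p = c := he
  have he0 : e ≠ 0 := by
    rintro rfl
    rw [zero_pow hpp.ne_zero] at he'
    exact hc0 he'.symm
  set α : U ≃ₗ[F] U := LinearEquiv.smulOfNeZero F U e he0 * k with hα
  set β : W ≃ₗ[F] W := LinearEquiv.smulOfNeZero F W e⁻¹ (inv_ne_zero he0) * l with hβ
  have hαa : ∀ a, α a = e • k a := fun a => rfl
  have hβa : ∀ a, β a = e⁻¹ • l a := fun a => rfl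
  have hαm : ∀ (m : ℕ) a, (α ^ m) a = e ^ m • (k ^ m) a := by
    intro m
    induction m with
    | zero => intro a; simp
    | succ m ih =>
      intro a
      rw [lpow_succ, lpow_succ, hαa, map_smul, ih, smul_smul, ← pow_succ']
  have hβm : ∀ (m : ℕ) a, (β ^ m) a = e⁻¹ ^ m • (l ^ m) a := by
    intro m
    induction m with
    | zero => intro a; simp
    | succ m ih =>
      intro a
      rw [lpow_succ, lpow_succ, hβa, map_smul, ih, smul_smul, ← pow_succ']
  have hαp : α ^ p = 1 := by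
    ext a
    rw [hαm, he', hkp]; rfl
  have hβp : β ^ p = 1 := by
    ext a
    rw [hβm, hc, smul_smul, inv_pow, he', inv_mul_cancel₀ hc0, one_smul]; rfl
  have htm : tm S.ten k l = tm S.ten α β := by
    refine ext_t' S.ten fun a u => ?_
    rw [tm_apply, tm_apply, hαa, hβa, map_smul, map_smul, LinearMap.smul_apply, smul_smul, inv_mul_cancel₀ he0,
      one_smul]
  refine ⟨α, β, htm, ?_, ?_, nil_of_pow hαp, nil_of_pow hβp⟩
  all_goals
    rw [htm] at hO
    obtain ⟨d, hd0, hd1, hd2⟩ := S.sim_of_mem_O hO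
    have hdp : d = 1 := by
      have hm : ∀ (m : ℕ) x y, polar QU ((α ^ m) x) ((α ^ m) y) = d ^ m * polar QU x y := by
        intro m
        induction m with
        | zero => intro x y; simp
        | succ m ih =>
          intro x y
          rw [lpow_succ, lpow_succ, ih, hd1, pow_succ]
          ring
      obtain ⟨a, ha⟩ := exists_ne (0 : U)
      obtain ⟨b, hb⟩ := S.ndU.exists_polar_eq ha 1
      have h1 := hm p a b
      rw [hαp, hb, mul_one] at h1
      have h3 : polar QU ((1 : U ≃ₗ[F] U) a) ((1 : U ≃ₗ[F] U) b) = 1 := hb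
      rw [h3] at h1
      have h5 : (d - 1) ^ p = 0 := by
        rw [sub_pow_char, one_pow, ← h1, sub_self]
      exact sub_eq_zero.1 (pow_eq_zero_iff hpp.ne_zero |>.1 h5)
    rw [hdp] at hd1 hd2
  · exact mem_O_of_polar S.two fun x y => by rw [hd1, one_mul]
  · exact mem_O_of_polar S.two fun x y => by rw [hd2, inv_one, one_mul]

/-- The case of dimension three. -/
theorem caseA3 [FiniteDimensional F U] [FiniteDimensional F W] [Nontrivial U]
    (S : TSt t QU QW Q) {α : U ≃ₗ[F] U} {β : W ≃ₗ[F] W} (hβ : β ∈ O QW)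
    (hk : Module.finrank F W = 3)
    (hr : Module.finrank F (LinearMap.range ((β : Module.End F W) - 1)) = 2)
    (hle : ∀ y, β y = y → y ∈ LinearMap.range ((β : Module.End F W) - 1))
    (hα : IsNilpotent ((α : Module.End F U) - 1)) (hα1 : α ≠ 1)
    (hcube : ((tm S.ten α β : Module.End F V) - 1) ^ 3 = 0) {c : F} (hc0 : c ≠ 0) (hc1 : c ≠ 1) (hc2 : c ≠ 2)
    {s : V ≃ₗ[F] V} (hs : (s : Module.End F V) = 1 + c • ((tm S.ten α β : Module.End F V) - 1) +
      (c * (c - 1) * 2⁻¹) • (((tm S.ten α β : Module.End F V) - 1) * ((tm S.ten α β : Module.End F V) - 1)))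
    (hcar : ∀ w, w ≠ 0 → QW w = 0 → (∀ a, ∃ b, s (t a w) = t b w) →
      ∃ (α' : U ≃ₗ[F] U) (β' : W ≃ₗ[F] W), s = tm S.ten α' β') : False := by
  have h2 := S.two
  set ν : Module.End F W := (β : Module.End F W) - 1 with hν
  have hνa : ∀ v, β v = v + ν v := fun v => by
    have : ν v = β v - v := rfl
    rw [this]; abel
  have hrn := LinearMap.finrank_range_add_finrank_ker ν
  have hkd : Module.finrank F (LinearMap.ker ν) = 1 := by omega
  -- a fixed vector of `α`
  obtain ⟨a₀, ha₀, ha₀'⟩ : ∃ a, a ≠ 0 ∧ α a = a := by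
    obtain ⟨n, hn⟩ := hα
    obtain ⟨a, ha⟩ := exists_ne (0 : U)
    have hex : ∃ m : ℕ, (((α : Module.End F U) - 1) ^ m) a = 0 := ⟨n, by rw [hn, LinearMap.zero_apply]⟩
    classical
    have hm0 : Nat.find hex ≠ 0 := by
      intro h
      have h1 := Nat.find_spec hex
      rw [h, pow_zero] at h1
      exact ha h1
    obtain ⟨m, hm⟩ := Nat.exists_eq_succ_of_ne_zero hm0
    refine ⟨(((α : Module.End F U) - 1) ^ m) a, Nat.find_min hex (by omega), ?_⟩
    have h1 := Nat.find_spec hex
    rw [hm, Nat.succ_eq_add_one, pow_succ', Module.End.mul_apply] at h1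
    exact sub_eq_zero.1 h1
  have hν3 : ∀ u, ν (ν (ν u)) = 0 := by
    intro u
    have h1 : ∀ u, ((tm S.ten α β : Module.End F V) - 1) (t a₀ u) = t a₀ (ν u) := by
      intro u
      have : ((tm S.ten α β : Module.End F V) - 1) (t a₀ u) = tm S.ten α β (t a₀ u) - t a₀ u := rfl
      rw [this, tm_apply, ha₀', hνa, map_add, add_sub_cancel_left]
    have h3 := LinearMap.congr_fun hcube (t a₀ u)
    rw [pow_succ, pow_two, Module.End.mul_apply, Module.End.mul_apply, h1, h1, h1, LinearMap.zero_apply] at h3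
    by_contra hne
    exact t_ne S.ten ha₀ hne h3
  obtain ⟨u₁, hu₁⟩ : ∃ u, ν (ν u) ≠ 0 := by
    by_contra hcon
    push Not at hcon
    have h1 : LinearMap.range ν ≤ LinearMap.ker ν := by
      rintro _ ⟨u, rfl⟩
      exact hcon u
    have := Submodule.finrank_mono h1
    omega
  set w := ν (ν u₁) with hw
  have hνw : ν w = 0 := hν3 u₁
  have hβw : β w = w := by rw [hνa, hνw, add_zero]
  have hww : QW w = 0 := (Q_zero_iff h2 w).2 (polar_fix hβ hβw (hle w hβw))
  have hspan : ∀ u, ∃ c : F, ν (ν u) = c • w := by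
    intro u
    obtain ⟨c, hc⟩ := exists_smul_eq_of_finrank_eq_one hkd (x := ⟨w, hνw⟩)
      (fun h => hu₁ (congrArg Subtype.val h)) ⟨ν (ν u), hν3 u⟩
    exact ⟨c, (congrArg Subtype.val hc).symm⟩
  -- `s` commutes with `1 ⊗ β`
  set X : Module.End F V := (tm S.ten α β : Module.End F V) with hX
  set B : Module.End F V := (tm S.ten 1 β : Module.End F V) - 1 with hB
  have hBt : ∀ a u, B (t a u) = t a (ν u) := by
    intro a u
    have : B (t a u) = tm S.ten 1 β (t a u) - t a u := rfl
    rw [this, tm_apply, hνa, map_add]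
    exact add_sub_cancel_left _ _
  have hXB : X * B = B * X := by
    refine ext_t S.ten fun a u => ?_
    rw [Module.End.mul_apply, Module.End.mul_apply, hBt]
    have e1 : ∀ a u, X (t a u) = t (α a) (β u) := fun a u => tm_apply S.ten α β a u
    rw [e1, e1, hBt]
    congr 1
    rw [hνa, hνa, map_add]
  have hsB : (s : Module.End F V) * B = B * s := by
    rw [hs]
    have e1 : (X - 1) * B = B * (X - 1) := by rw [sub_mul, hXB, one_mul, mul_sub B, mul_one]
    have e2 : (X - 1) * (X - 1) * B = B * ((X - 1) * (X - 1)) := by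
      rw [mul_assoc, e1, ← mul_assoc, e1, mul_assoc]
    rw [add_mul, add_mul, mul_add, mul_add, one_mul, mul_one, smul_mul_assoc, mul_smul_comm, smul_mul_assoc,
      mul_smul_comm, e1, e2]
  have hsw : ∀ a, ∃ b, s (t a w) = t b w := by
    intro a
    have h1 : s (t a w) = B (B (s (t a u₁))) := by
      have e1 : t a w = B (B (t a u₁)) := by rw [hBt, hBt]
      rw [e1]
      have e3 : ∀ v, s (B v) = B (s v) := fun v => LinearMap.congr_fun hsB v
      rw [e3, e3]
    rw [h1]
    have h3 : ∀ v, ∃ b, B (B v) = t b w := by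
      intro v
      induction v using S.ten.inductionOn with
      | zero => exact ⟨0, by simp⟩
      | tmul x y =>
        rw [hBt, hBt]
        obtain ⟨c, hc⟩ := hspan y
        exact ⟨c • x, by rw [hc, map_smul, map_smul, LinearMap.smul_apply]⟩
      | add x y hx hy =>
        obtain ⟨b, hb⟩ := hx
        obtain ⟨b', hb'⟩ := hy
        exact ⟨b + b', by rw [map_add, map_add, hb, hb', map_add, LinearMap.add_apply]⟩
    exact h3 _
  obtain ⟨α', β', hs'⟩ := hcar w hu₁ hww hsw
  -- functionals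
  have hνν : ∀ a b : F, a • u₁ + b • ν u₁ ≠ w := by
    intro a b h
    have e1 := congrArg ν h
    have e2 := congrArg ν e1
    simp only [map_add, map_smul, hνw, hν3, smul_zero, add_zero, map_zero] at e1 e2
    have ha : a = 0 := (smul_eq_zero.1 e2).resolve_right hu₁
    rw [ha, zero_smul, zero_add] at e1 h
    have hb : b = 0 := (smul_eq_zero.1 e1).resolve_right hu₁
    rw [hb, zero_smul] at h
    exact hu₁ h.symm
  have hνν' : ∀ a b : F, a • u₁ + b • w ≠ ν u₁ := by
    intro a b h
    have e1 := congrArg ν h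
    have e2 := congrArg ν e1
    simp only [map_add, map_smul, hνw, hν3, smul_zero, add_zero, map_zero] at e1 e2
    have ha : a = 0 := (smul_eq_zero.1 e2).resolve_right hu₁
    rw [ha, zero_smul] at e1
    exact hu₁ e1.symm
  obtain ⟨φ₂, hφ₂, hφ₂'⟩ := Submodule.exists_le_ker_of_notMem (p := Submodule.span F {u₁, ν u₁}) (v := w) (by
    intro h
    obtain ⟨a, b, hab⟩ := Submodule.mem_span_pair.1 h
    exact hνν a b hab)
  obtain ⟨φ₁, hφ₁, hφ₁'⟩ := Submodule.exists_le_ker_of_notMem (p := Submodule.span F {u₁, w}) (v := ν u₁) (by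
    intro h
    obtain ⟨a, b, hab⟩ := Submodule.mem_span_pair.1 h
    exact hνν' a b hab)
  have f21 : φ₂ u₁ = 0 := hφ₂' (Submodule.subset_span (by simp))
  have f22 : φ₂ (ν u₁) = 0 := hφ₂' (Submodule.subset_span (by simp))
  have f11 : φ₁ u₁ = 0 := hφ₁' (Submodule.subset_span (by simp))
  have f12 : φ₁ w = 0 := hφ₁' (Submodule.subset_span (by simp))
  set d : F := c * (c - 1) * 2⁻¹ with hd
  have hd0 : d ≠ 0 := mul_ne_zero (mul_ne_zero hc0 (sub_ne_zero.2 hc1)) (inv_ne_zero h2)
  have hcd : c - 2 * d ≠ 0 := by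
    have e : c - 2 * d = c * (2 - c) := by
      rw [hd]
      field_simp
      ring
    rw [e]
    exact mul_ne_zero hc0 (sub_ne_zero.2 (Ne.symm hc2))
  have hexp : ∀ a, t (α' a) (β' u₁) = (1 - c + d) • t a u₁ + (c - 2 * d) • t (α a) (u₁ + ν u₁) +
      d • t (α (α a)) (u₁ + (2 : F) • ν u₁ + w) := by
    intro a
    have e1 : t (α' a) (β' u₁) = (s : Module.End F V) (t a u₁) := by rw [hs', LinearEquiv.coe_coe, tm_apply]
    have e2 : ∀ a u, X (t a u) = t (α a) (β u) := fun a u => tm_apply S.ten α β a u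
    rw [e1, hs]
    simp only [LinearMap.add_apply, LinearMap.smul_apply, Module.End.mul_apply, LinearMap.sub_apply,
      Module.End.one_apply, map_sub, e2, hνa, map_add, ← hw]
    simp only [map_add, map_smul]
    module
  have g2 : ∀ a, φ₂ (β' u₁) • α' a = (d * φ₂ w) • α (α a) := by
    intro a
    have e1 := congrArg (cW S.ten φ₂) (hexp a)
    simp only [map_add, map_smul, cW_apply, f21, f22, zero_smul, smul_zero, add_zero, zero_add] at e1
    rw [e1, smul_smul]
  have g1 : ∀ a, φ₁ (β' u₁) • α' a = ((c - 2 * d) * φ₁ (ν u₁)) • α a + (d * 2 * φ₁ (ν u₁)) • α (α a) := by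
    intro a
    have e1 := congrArg (cW S.ten φ₁) (hexp a)
    simp only [map_add, map_smul, cW_apply, f11, f12, zero_smul, smul_zero, add_zero, zero_add, smul_smul] at e1
    rw [e1, mul_assoc d]
  have hl2 : φ₂ (β' u₁) ≠ 0 := by
    intro h
    have e1 := g2 a₀
    rw [h, zero_smul, ha₀', ha₀'] at e1
    exact ha₀ ((smul_eq_zero.1 e1.symm).resolve_left (mul_ne_zero hd0 hφ₂))
  -- `α` is a scalar
  have hsc : ∃ μ : F, ∀ b, μ • α b = ((c - 2 * d) * φ₁ (ν u₁)) • b := by
    refine ⟨φ₁ (β' u₁) * (φ₂ (β' u₁))⁻¹ * (d * φ₂ w) - d * 2 * φ₁ (ν u₁), fun b => ?_⟩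
    obtain ⟨a, rfl⟩ := α.surjective b
    have e1 : α' a = ((φ₂ (β' u₁))⁻¹ * (d * φ₂ w)) • α (α a) := by
      rw [mul_smul, ← g2, smul_smul, inv_mul_cancel₀ hl2, one_smul]
    have e2 := g1 a
    rw [e1, smul_smul] at e2
    rw [sub_smul, mul_assoc, e2]
    abel
  obtain ⟨μ, hμ⟩ := hsc
  have hk1 : (c - 2 * d) * φ₁ (ν u₁) ≠ 0 := mul_ne_zero hcd hφ₁
  have hμ1 : μ = (c - 2 * d) * φ₁ (ν u₁) := by
    have e1 := hμ a₀
    rw [ha₀'] at e1
    exact smul_left_injective F ha₀ e1
  apply hα1
  ext b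
  have e1 := hμ b
  rw [hμ1] at e1
  exact smul_right_injective U hk1 e1

end two

end Cfsg.Agent.H900.C7
end

-- part: H900/C7/Fix
section
/-!
# Siegel elements of slot `i` normalising a conjugate of the algebra of slot `j`
-/

set_option autoImplicit false
set_option linter.unusedSectionVars false
set_option linter.unusedSimpArgs false
set_option linter.unusedVariables false

namespace Cfsg.Agent.H900.C7

open QuadraticMap hiding proj
open Cfsg.Agent.LieClassical.OrthCore Cfsg.Agent.LieClassical.OrthTrans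
open Cfsg.Agent.H882.Ten Cfsg.Agent.H883.C7 Cfsg.Agent.LieClassical.OrthFinite

variable {F : Type*} [Field F] {κ : Type*} [Fintype κ] [DecidableEq κ] {ι : Type*} [Fintype ι] [DecidableEq ι]
  {q : QuadraticForm F (κ → F)} {M : Subgroup (((ι → κ) → F) ≃ₗ[F] ((ι → κ) → F))}

/-- The context. -/
structure Ctx (q : QuadraticForm F (κ → F)) (M : Subgroup (((ι → κ) → F) ≃ₗ[F] ((ι → κ) → F))) : Prop where
  h7 : Hyp7 q
  ht : 2 ≤ Fintype.card ι
  ov : Over q M
  hD : DProp q M
  sing : ∃ x : κ → F, x ≠ 0 ∧ q x = 0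

theorem Ctx.le_O [Finite F] (C : Ctx q M) : M ≤ O (QT q ι) := Over.le_O C.ov

theorem Ctx.siegel_mem [Finite F] (C : Ctx q M) (i : ι) {w y : κ → F} (hw : q w = 0) (hy : polar q w y = 0) :
    slE i (siegel q w y hw hy) ∈ M := Over.siegel_mem C.ov C.h7.two (C.h7.good C.ht) i hw hy

theorem finrank_tensor (i : ι) : Module.finrank F ((ι → κ) → F) =
    Module.finrank F (({l // l ≠ i} → κ) → F) * Module.finrank F (κ → F) := by
  rw [← (isTen F κ i).equiv.finrank_eq, Module.finrank_tensorProduct]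

/-- The fixed space of a slot Siegel element. -/
theorem finrank_fx_siegel (i : ι) {w y : κ → F} (hw : q w = 0) (hy : polar q w y = 0) (h2 : (2 : F) ≠ 0)
    (hq : Nondeg q) :
    Module.finrank F (({l // l ≠ i} → κ) → F) * (Module.finrank F (κ → F) - 2) ≤
      Module.finrank F (fx (slE (ι := ι) i (siegel q w y hw hy))) := by
  set s := slE (ι := ι) i (siegel q w y hw hy) with hs
  have S := tst (ι := ι) h2 hq i
  have hrn := LinearMap.finrank_range_add_finrank_ker ((s : Module.End F ((ι → κ) → F)) - 1)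
  have hr : Module.finrank F (LinearMap.range ((s : Module.End F ((ι → κ) → F)) - 1)) ≤
      2 * Module.finrank F (({l // l ≠ i} → κ) → F) := by
    let Λ : ((({l // l ≠ i} → κ) → F) × (({l // l ≠ i} → κ) → F)) →ₗ[F] ((ι → κ) → F) :=
      ((ten F κ i).flip y).coprod ((ten F κ i).flip w)
    have hle : LinearMap.range ((s : Module.End F ((ι → κ) → F)) - 1) ≤ LinearMap.range Λ := by
      rintro _ ⟨v, rfl⟩
      induction v using (isTen F κ i).inductionOn with
      | zero => rw [map_zero]; exact Submodule.zero_mem _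
      | tmul a u =>
        refine ⟨(polar q w u • a, -(polar q y u • a) - (q y * polar q w u) • a), ?_⟩
        have e1 : ((s : Module.End F ((ι → κ) → F)) - 1) (ten F κ i a u) = s (ten F κ i a u) - ten F κ i a u := rfl
        rw [e1, hs, slE_ten, siegel_apply]
        show ten F κ i _ y + ten F κ i _ w = _
        simp only [LinearMap.fst_apply, LinearMap.snd_apply, map_add, map_sub, map_smul, map_neg, LinearMap.add_apply,
          LinearMap.sub_apply, LinearMap.smul_apply, LinearMap.neg_apply]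
        module
      | add x y hx hy => rw [map_add]; exact Submodule.add_mem _ hx hy
    refine (Submodule.finrank_mono hle).trans ((LinearMap.finrank_range_le Λ).trans ?_)
    rw [Module.finrank_prod]
    omega
  have hV := finrank_tensor (F := F) (κ := κ) i
  rw [hV] at hrn
  have e : fx s = LinearMap.ker ((s : Module.End F ((ι → κ) → F)) - 1) := rfl
  rw [e, Nat.mul_sub, mul_comm _ 2]
  omega

theorem finrank_fx_conj {V : Type*} [AddCommGroup V] [Module F V] [FiniteDimensional F V] (g d : V ≃ₗ[F] V) :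
    Module.finrank F (fx d) ≤ Module.finrank F (fx (g⁻¹ * d * g)) := by
  let Λ : fx d →ₗ[F] fx (g⁻¹ * d * g) :=
    ((g⁻¹ : V ≃ₗ[F] V) : V →ₗ[F] V).restrict (p := fx d) (q := fx (g⁻¹ * d * g)) (by
      intro v hv
      rw [mem_fx] at hv ⊢
      have h1 : ∀ v, g (g⁻¹ v) = v := fun v => LinearEquiv.apply_symm_apply g v
      show g⁻¹ (d (g (g⁻¹ v))) = g⁻¹ v
      rw [h1, hv])
  refine LinearMap.finrank_le_finrank_of_injective (f := Λ) ?_
  intro a b hab
  exact Subtype.ext ((g⁻¹ : V ≃ₗ[F] V).injective (congrArg Subtype.val hab))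

theorem siegel_smul_eq (h2 : (2 : F) ≠ 0) {w y : κ → F} (hw : q w = 0) (hy : polar q w y = 0) (c : F)
    (hcy : polar q w (c • y) = 0) :
    ((siegel q w (c • y) hw hcy : (κ → F) ≃ₗ[F] (κ → F)) : Module.End F (κ → F)) =
      1 + c • (((siegel q w y hw hy : (κ → F) ≃ₗ[F] (κ → F)) : Module.End F (κ → F)) - 1) +
      (c * (c - 1) * 2⁻¹) • ((((siegel q w y hw hy : (κ → F) ≃ₗ[F] (κ → F)) : Module.End F (κ → F)) - 1) *
        (((siegel q w y hw hy : (κ → F) ≃ₗ[F] (κ → F)) : Module.End F (κ → F)) - 1)) := by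
  rw [siegel_sub_one_sq, siegel_eq, siegel_eq, nn_smul_right, QuadraticMap.map_smul, smul_smul]
  have e : c * (c - 1) * 2⁻¹ * -(2 * q y) = -(c * (c - 1)) * q y := by field_simp
  rw [e, smul_eq_mul]
  module

/-- The trichotomy. -/
theorem tri [Finite F] (C : Ctx q M) {g : ((ι → κ) → F) ≃ₗ[F] ((ι → κ) → F)} (hg : g ∈ M) {i j : ι} {w y : κ → F}
    (hw0 : w ≠ 0) (hw : q w = 0) (hy : polar q w y = 0) (hqy : q y ≠ 0)
    (h : Carries (g⁻¹ * slE i (siegel q w y hw hy) * g) j j) :
    Carries g j i ∨ ∀ f : Module.End F (κ → F),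
      cj g (sl j f) * sl i (siegel q w y hw hy : (κ → F) ≃ₗ[F] (κ → F)) =
        sl i (siegel q w y hw hy : (κ → F) ≃ₗ[F] (κ → F)) * cj g (sl j f) := by
  have h2 := C.h7.two
  have hq := C.h7.nd
  have hk3 := C.h7.three
  set d := slE (ι := ι) i (siegel q w y hw hy) with hd
  set x₀ := g⁻¹ * d * g with hx₀
  have hdM : d ∈ M := C.siegel_mem i hw hy
  have hxM : x₀ ∈ M := M.mul_mem (M.mul_mem (M.inv_mem hg) hdM) hg
  have hxO : x₀ ∈ O (QT q ι) := C.le_O hxM
  have hxe : (x₀ : Module.End F ((ι → κ) → F)) = cj g⁻¹ (sl i (siegel q w y hw hy : (κ → F) ≃ₗ[F] (κ → F))) := by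
    rw [← slE_toEnd, cj_toEnd, inv_inv]
  have hcj1 : ∀ T : Module.End F ((ι → κ) → F), cj g⁻¹ T - 1 = cj g⁻¹ (T - 1) := fun T => by
    rw [cj_sub', cj_one']
  have hcube : ((x₀ : Module.End F ((ι → κ) → F)) - 1) ^ 3 = 0 := by
    rw [hxe, hcj1]
    have h1 : sl i ((siegel q w y hw hy : (κ → F) ≃ₗ[F] (κ → F)) : Module.End F (κ → F)) - 1 =
        slA i (((siegel q w y hw hy : (κ → F) ≃ₗ[F] (κ → F)) : Module.End F (κ → F)) - 1) := by
      rw [map_sub, map_one]; rfl
    rw [pow_succ, pow_two, ← cj_mul', ← cj_mul', ← pow_two, ← pow_succ, h1, ← map_pow, siegel_sub_one_cube, map_zero,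
      cj_zero']
  have hne : Nontrivial (κ → F) := ⟨w, 0, hw0⟩
  have hneR : Nontrivial (({l // l ≠ j} → κ) → F) := by
    obtain ⟨b, -⟩ := Function.ne_iff.1 hw0
    have : Nonempty ({l // l ≠ j} → κ) := ⟨fun _ => b⟩
    exact Function.nontrivial
  obtain ⟨k, l, hkl⟩ := carries_tm hw0 h
  have S := tst (ι := ι) h2 hq j
  have hkl' : x₀ = tm S.ten k l := hkl
  rw [hkl'] at hxO hcube
  obtain ⟨α, β, hab, hαO, hβO, hαn, hβn⟩ := unip_form S hxO hcube
  rw [← hkl'] at hab
  by_cases hα1 : α = 1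
  · -- the element lies in slot `j`
    left
    have h1 : cj g⁻¹ (sl i (siegel q w y hw hy : (κ → F) ≃ₗ[F] (κ → F))) = sl j (β : Module.End F (κ → F)) := by
      rw [← hxe, hab, hα1]
      refine ext_t (isTen F κ j) fun a u => ?_
      rw [sl_ten, LinearEquiv.coe_coe, tm_apply]
      rfl
    have h3 := carries_symm hw0 (carries_of_siegel h2 hq C.hD (M.inv_mem hg) hw0 hw hy hqy h1)
    rwa [inv_inv] at h3
  by_cases hβ1 : β = 1
  · -- the element centralises slot `j`
    right
    intro f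
    rw [comm_cj, ← hxe, hab, hβ1]
    refine ext_t (isTen F κ j) fun a u => ?_
    rw [Module.End.mul_apply, Module.End.mul_apply, sl_ten, LinearEquiv.coe_coe, tm_apply, tm_apply, sl_ten]
    rfl
  exfalso
  rw [hab] at hx₀
  have hfr : Module.finrank F (κ → F) = Fintype.card κ := Module.finrank_fintype_fun_eq_card F
  have hfix : Module.finrank F (({l // l ≠ j} → κ) → F) * (Module.finrank F (κ → F) - 2) ≤
      Module.finrank F (fx (tm S.ten α β)) := by
    rw [hx₀, finrank_rest j i]
    exact (finrank_fx_siegel i hw hy h2 hq).trans (finrank_fx_conj g d)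
  obtain ⟨hW3, hr, hle⟩ := caseA' S (nondeg_QT h2 hq) hβO hβn hα1 hβ1 (by rw [hfr]; exact hk3)
    (by rw [hfr]; exact C.h7.four) hfix
  rw [hfr] at hW3
  have h5 := C.h7.five hW3
  obtain ⟨c, hc0, hc1, hc2⟩ : ∃ c : F, c ≠ 0 ∧ c ≠ 1 ∧ c ≠ 2 := by
    classical
    have := Fintype.ofFinite F
    rw [Nat.card_eq_fintype_card] at h5
    by_contra hcon
    push Not at hcon
    have h1 : (Finset.univ : Finset F) ⊆ {0, 1, 2} := by
      intro c _
      by_cases hc0 : c = 0
      · simp [hc0]
      by_cases hc1 : c = 1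
      · simp [hc1]
      simp [hcon c hc0 hc1]
    have h3 := Finset.card_le_card h1
    have h4 : ({0, 1, 2} : Finset F).card ≤ 3 := Finset.card_le_three
    rw [Finset.card_univ] at h3
    omega
  have hcy : polar q w (c • y) = 0 := by rw [polar_smul_right, hy, smul_zero]
  set s := g⁻¹ * slE (ι := ι) i (siegel q w (c • y) hw hcy) * g with hs
  have hsM : s ∈ M := M.mul_mem (M.mul_mem (M.inv_mem hg) (C.siegel_mem i hw hcy)) hg
  have hse : (s : Module.End F ((ι → κ) → F)) = cj g⁻¹ (sl i (siegel q w (c • y) hw hcy : (κ → F) ≃ₗ[F] (κ → F))) := by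
    rw [← slE_toEnd, cj_toEnd, inv_inv]
  rw [← hkl', hab] at hcube
  rw [hab] at hxe
  refine caseA3 S hβO (by rw [hfr]; exact hW3) hr hle hαn hα1 hcube
    hc0 hc1 hc2 (s := s) ?_ ?_
  · rw [hse, siegel_smul_eq h2 hw hy c hcy, sl_add, sl_add, sl_one, sl_smul, sl_smul, sl_mul, sl_sub, sl_one,
      cj_add', cj_add', cj_one', cj_smul', cj_smul', cj_mul', cj_sub', cj_one', ← hxe]
  · intro w₁ hw₁0 hw₁ hw₁s
    have h1 : Carries s j j := C.hD s hsM j j w₁ w₁ hw₁0 hw₁0 hw₁ hw₁s
    exact carries_tm hw₁0 h1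

/-- **Fixed conjugates.** -/
theorem fix [Finite F] (C : Ctx q M) {g : ((ι → κ) → F) ≃ₗ[F] ((ι → κ) → F)} (hg : g ∈ M) {i j : ι} {w y : κ → F}
    (hw0 : w ≠ 0) (hw : q w = 0) (hy : polar q w y = 0) (hqy : q y ≠ 0)
    (h : Carries (g⁻¹ * slE i (siegel q w y hw hy) * g) j j) :
    Carries g j i ∨ ∀ f f' : Module.End F (κ → F), cj g (sl j f) * sl i f' = sl i f' * cj g (sl j f) := by
  have h2 := C.h7.two
  have hq := C.h7.nd
  have hk3 := C.h7.three
  obtain ⟨w', hyp⟩ := LieClassical.OrthTrans.exists_hyp hq hw hw0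
  by_cases hcar : Carries g j i
  · exact Or.inl hcar
  right
  have hcomm := (tri C hg hw0 hw hy hqy h).resolve_left hcar
  -- `cj g (sl j f)` commutes with `ω_w` in slot `i`
  have hom : ∀ f : Module.End F (κ → F), cj g (sl j f) * sl i (om q w) = sl i (om q w) * cj g (sl j f) := by
    intro f
    have hc : -(2 * q y) ≠ 0 := neg_ne_zero.2 (mul_ne_zero h2 hqy)
    have h1 := hcomm f
    have h3 : cj g (sl j f) * (sl i ((siegel q w y hw hy : (κ → F) ≃ₗ[F] (κ → F)) : Module.End F (κ → F)) - 1) =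
        (sl i ((siegel q w y hw hy : (κ → F) ≃ₗ[F] (κ → F)) : Module.End F (κ → F)) - 1) * cj g (sl j f) := by
      rw [mul_sub, sub_mul, h1, mul_one, one_mul]
    have h4 : om q w = (-(2 * q y))⁻¹ • ((((siegel q w y hw hy : (κ → F) ≃ₗ[F] (κ → F)) : Module.End F (κ → F)) - 1) *
      (((siegel q w y hw hy : (κ → F) ≃ₗ[F] (κ → F)) : Module.End F (κ → F)) - 1)) := by
      rw [siegel_sub_one_sq, smul_smul, inv_mul_cancel₀ hc, one_smul]
    rw [h4, sl_smul, sl_mul, sl_sub, sl_one, mul_smul_comm, smul_mul_assoc, ← mul_assoc, h3, mul_assoc, h3, mul_assoc]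
  -- all Siegel elements of slot `j` are in the second case
  have key : ∀ (w₁ y₁ : κ → F) (hw₁0 : w₁ ≠ 0) (hw₁ : q w₁ = 0) (hy₁ : polar q w₁ y₁ = 0) (hqy₁ : q y₁ ≠ 0)
      (f : Module.End F (κ → F)),
      cj g⁻¹ (sl i f) * sl j (siegel q w₁ y₁ hw₁ hy₁ : (κ → F) ≃ₗ[F] (κ → F)) =
        sl j (siegel q w₁ y₁ hw₁ hy₁ : (κ → F) ≃ₗ[F] (κ → F)) * cj g⁻¹ (sl i f) := by
    intro w₁ y₁ hw₁0 hw₁ hy₁ hqy₁
    set d₁ := slE (ι := ι) j (siegel q w₁ y₁ hw₁ hy₁) with hd₁
    have hd₁M : d₁ ∈ M := C.siegel_mem j hw₁ hy₁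
    have hgd : g * d₁ * g⁻¹ ∈ M := M.mul_mem (M.mul_mem hg hd₁M) (M.inv_mem hg)
    have hc1 : Carries (g * d₁ * g⁻¹) i i := by
      refine carries_of_comm hq C.hD hgd hw0 hw ?_
      rw [← cj_toEnd, hd₁, slE_toEnd]
      exact hom _
    have hc2 : Carries (g⁻¹⁻¹ * d₁ * g⁻¹) i i := by rw [inv_inv]; exact hc1
    refine (tri C (M.inv_mem hg) hw₁0 hw₁ hy₁ hqy₁ hc2).resolve_left fun h3 => hcar ?_
    have h4 := carries_symm hw0 h3
    rwa [inv_inv] at h4
  intro f f'
  rw [comm_cj]
  -- the operators of slot `j` commuting with `cj g⁻¹ (sl i f')`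
  set Z := cj g⁻¹ (sl i f') with hZ
  suffices hs : ∀ f : Module.End F (κ → F), Z * sl j f = sl j f * Z from (hs f).symm
  have hom1 : ∀ w₁, w₁ ≠ 0 → q w₁ = 0 → Z * sl j (om q w₁) = sl j (om q w₁) * Z := by
    intro w₁ hw₁0 hw₁
    obtain ⟨w₁', hyp₁⟩ := LieClassical.OrthTrans.exists_hyp hq hw₁ hw₁0
    obtain ⟨y₁, hy₁, -, hqy₁⟩ := exists_nonsing_perp hq
      (by rw [Module.finrank_fintype_fun_eq_card]; exact hk3) hyp₁
    have h3 := key w₁ y₁ hw₁0 hw₁ hy₁ hqy₁ f'
    have hc : -(2 * q y₁) ≠ 0 := neg_ne_zero.2 (mul_ne_zero h2 hqy₁)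
    have h4 : Z * (sl j ((siegel q w₁ y₁ hw₁ hy₁ : (κ → F) ≃ₗ[F] (κ → F)) : Module.End F (κ → F)) - 1) =
        (sl j ((siegel q w₁ y₁ hw₁ hy₁ : (κ → F) ≃ₗ[F] (κ → F)) : Module.End F (κ → F)) - 1) * Z := by
      rw [mul_sub, sub_mul, h3, mul_one, one_mul]
    have h5 : om q w₁ = (-(2 * q y₁))⁻¹ •
        ((((siegel q w₁ y₁ hw₁ hy₁ : (κ → F) ≃ₗ[F] (κ → F)) : Module.End F (κ → F)) - 1) *
        (((siegel q w₁ y₁ hw₁ hy₁ : (κ → F) ≃ₗ[F] (κ → F)) : Module.End F (κ → F)) - 1)) := by
      rw [siegel_sub_one_sq, smul_smul, inv_mul_cancel₀ hc, one_smul]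
    rw [h5, sl_smul, sl_mul, sl_sub, sl_one, mul_smul_comm, smul_mul_assoc, ← mul_assoc, h4, mul_assoc, h4, mul_assoc]
  exact om_ind hq hk3 hyp (P := fun f => Z * sl j f = sl j f * Z)
    (fun a b ha hb => by rw [sl_add, mul_add, add_mul, ha, hb])
    (fun c a ha => by rw [sl_smul, mul_smul_comm, smul_mul_assoc, ha])
    (fun a b ha hb => by rw [sl_mul, ← mul_assoc, ha, mul_assoc, hb, mul_assoc]) hom1

end Cfsg.Agent.H900.C7
end

-- part: H900/C7/Ptr
section
/-!
# Partial traces onto a slot and the sum over the conjugates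
-/

set_option autoImplicit false
set_option linter.unusedSectionVars false
set_option linter.unusedSimpArgs false
set_option linter.unusedVariables false

namespace Cfsg.Agent.H900.C7

open QuadraticMap hiding proj
open Cfsg.Agent.LieClassical.OrthCore Cfsg.Agent.LieClassical.OrthTrans
open Cfsg.Agent.H882.Ten Cfsg.Agent.H883.C7 Cfsg.Agent.LieClassical.OrthFinite

variable {F : Type*} [Field F] {κ : Type*} [Fintype κ] [DecidableEq κ] {ι : Type*} [Fintype ι] [DecidableEq ι]
  {q : QuadraticForm F (κ → F)} {M : Subgroup (((ι → κ) → F) ≃ₗ[F] ((ι → κ) → F))}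

theorem trace_cj {V : Type*} [AddCommGroup V] [Module F V] (g : V ≃ₗ[F] V) (a : Module.End F V) :
    LinearMap.trace F V (cj g a) = LinearMap.trace F V a := by
  rw [cj_eq_mul, LinearMap.trace_mul_comm, ← mul_assoc, toEnd_inv_mul, one_mul]

theorem smulRight_add' {U : Type*} [AddCommGroup U] [Module F U] (φ : U →ₗ[F] F) (u u' : U) :
    φ.smulRight (u + u') = φ.smulRight u + φ.smulRight u' := by
  ext v; simp only [LinearMap.smulRight_apply, LinearMap.add_apply, smul_add]

theorem smulRight_smul' {U : Type*} [AddCommGroup U] [Module F U] (φ : U →ₗ[F] F) (c : F) (u : U) :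
    φ.smulRight (c • u) = c • φ.smulRight u := by
  ext v; simp only [LinearMap.smulRight_apply, LinearMap.smul_apply]; rw [smul_comm]

theorem mul_smulRight' {U : Type*} [AddCommGroup U] [Module F U] (x : Module.End F U) (φ : U →ₗ[F] F) (u : U) :
    x * φ.smulRight u = φ.smulRight (x u) := by
  ext v; simp only [LinearMap.smulRight_apply, Module.End.mul_apply, map_smul]

/-- The partial trace onto slot `j`. -/
noncomputable def ptr (j : ι) (z : Module.End F ((ι → κ) → F)) : Module.End F (κ → F) where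
  toFun u b := LinearMap.trace F _ (z * sl j ((LinearMap.proj b).smulRight u))
  map_add' u u' := by
    funext b
    rw [smulRight_add', sl_add, mul_add, map_add]; rfl
  map_smul' c u := by
    funext b
    rw [smulRight_smul', sl_smul, mul_smul_comm, map_smul]; rfl

theorem ptr_apply (j : ι) (z : Module.End F ((ι → κ) → F)) (u : κ → F) (b : κ) :
    ptr j z u b = LinearMap.trace F _ (z * sl j ((LinearMap.proj b).smulRight u)) := rfl

theorem eq_sum_smulRight (f : Module.End F (κ → F)) :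
    f = ∑ b : κ, (LinearMap.proj b : (κ → F) →ₗ[F] F).smulRight (f (Pi.single b 1)) := by
  refine LinearMap.ext fun v => ?_
  rw [LinearMap.sum_apply]
  have hv : v = ∑ b, v b • (Pi.single b (1 : F) : κ → F) := by
    conv_lhs => rw [← Pi.basisFun F κ |>.sum_repr v]
    exact Finset.sum_congr rfl fun b _ => by rw [Pi.basisFun_apply, Pi.basisFun_repr]
  conv_lhs => rw [hv]
  rw [map_sum]
  exact Finset.sum_congr rfl fun b _ => by rw [map_smul]; rfl

theorem trace_ptr (j : ι) (z : Module.End F ((ι → κ) → F)) (f : Module.End F (κ → F)) :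
    LinearMap.trace F _ (ptr j z * f) = LinearMap.trace F _ (z * sl j f) := by
  have h1 : ∀ (u : κ → F) (b : κ), LinearMap.trace F _ (ptr j z * (LinearMap.proj b : (κ → F) →ₗ[F] F).smulRight u) =
      LinearMap.trace F _ (z * sl j ((LinearMap.proj b : (κ → F) →ₗ[F] F).smulRight u)) := by
    intro u b
    rw [mul_smulRight', LinearMap.trace_smulRight]
    rfl
  rw [eq_sum_smulRight f, Finset.mul_sum, map_sum]
  have h3 : sl (ι := ι) j (∑ b : κ, (LinearMap.proj b : (κ → F) →ₗ[F] F).smulRight (f (Pi.single b 1))) =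
      ∑ b : κ, sl j ((LinearMap.proj b : (κ → F) →ₗ[F] F).smulRight (f (Pi.single b 1))) := map_sum (slA j) _ _
  rw [h3, Finset.mul_sum, map_sum]
  exact Finset.sum_congr rfl fun b _ => h1 _ _

theorem eq_of_trace {x y : Module.End F (κ → F)}
    (h : ∀ f : Module.End F (κ → F), LinearMap.trace F _ (x * f) = LinearMap.trace F _ (y * f)) : x = y := by
  refine LinearMap.ext fun u => funext fun b => ?_
  have h1 := h ((LinearMap.proj b : (κ → F) →ₗ[F] F).smulRight u)
  rw [mul_smulRight', mul_smulRight', LinearMap.trace_smulRight, LinearMap.trace_smulRight] at h1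
  exact h1

theorem ptr_unique {j : ι} {z : Module.End F ((ι → κ) → F)} {x : Module.End F (κ → F)}
    (h : ∀ f : Module.End F (κ → F), LinearMap.trace F _ (z * sl j f) = LinearMap.trace F _ (x * f)) :
    ptr j z = x := eq_of_trace fun f => by rw [trace_ptr, h]

theorem ptr_add (j : ι) (z z' : Module.End F ((ι → κ) → F)) : ptr j (z + z') = ptr j z + ptr j z' :=
  ptr_unique fun f => by rw [add_mul, map_add, add_mul, map_add, trace_ptr, trace_ptr]

theorem ptr_smul (j : ι) (c : F) (z : Module.End F ((ι → κ) → F)) : ptr j (c • z) = c • ptr j z :=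
  ptr_unique fun f => by rw [smul_mul_assoc, map_smul, smul_mul_assoc, map_smul, trace_ptr]

/-- The partial trace as an element of the slot algebra. -/
noncomputable def Tp (j : ι) (z : Module.End F ((ι → κ) → F)) : Module.End F ((ι → κ) → F) := sl j (ptr j z)

theorem Tp_add (j : ι) (z z' : Module.End F ((ι → κ) → F)) : Tp j (z + z') = Tp j z + Tp j z' := by
  rw [Tp, ptr_add, sl_add]; rfl

theorem Tp_smul (j : ι) (c : F) (z : Module.End F ((ι → κ) → F)) : Tp j (c • z) = c • Tp j z := by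
  rw [Tp, ptr_smul, sl_smul]; rfl

theorem Tp_conj {x : κ → F} (hx : x ≠ 0) {j : ι} {n : ((ι → κ) → F) ≃ₗ[F] ((ι → κ) → F)} (h : Carries n j j)
    (z : Module.End F ((ι → κ) → F)) : Tp j (cj n z) = cj n (Tp j z) := by
  obtain ⟨T, hT⟩ := carries_inner hx h
  have h1 : ptr j (cj n z) = cj T (ptr j z) := by
    refine ptr_unique fun f => ?_
    have e1 : cj T (ptr j z) * f = cj T (ptr j z * cj T⁻¹ f) := by rw [cj_mul', cj_cj_inv]
    have e2 : cj n z * sl j f = cj n (z * sl j (cj T⁻¹ f)) := by rw [cj_mul', hT, cj_cj_inv]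
    rw [e1, e2, trace_cj, trace_cj, trace_ptr]
  rw [Tp, h1, Tp, hT]

/-- The summand. -/
noncomputable def phi {x : κ → F} (hx : x ≠ 0) (M : Subgroup (((ι → κ) → F) ≃ₗ[F] ((ι → κ) → F))) (j : ι)
    (z : Module.End F ((ι → κ) → F)) : M ⧸ NN hx M j → Module.End F ((ι → κ) → F) :=
  Quotient.lift (fun g : M => cj g.1 (Tp j (cj g.1⁻¹ z))) (by
    intro a b hab
    have h1 : a⁻¹ * b ∈ NN hx M j := QuotientGroup.leftRel_apply.1 hab
    set x' : M := a⁻¹ * b with hx'
    have hb : b = a * x' := by rw [hx', mul_inv_cancel_left]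
    have h2 : Carries x'.1 j j := h1
    change cj a.1 (Tp j (cj a.1⁻¹ z)) = cj b.1 (Tp j (cj b.1⁻¹ z))
    have e1 : b.1 = a.1 * x'.1 := by rw [hb]; rfl
    rw [e1, mul_inv_rev, ← cj_cj, ← cj_cj, Tp_conj hx (carries_symm hx h2), cj_cj_inv])

variable {x : κ → F} {hx : x ≠ 0}

theorem phi_mk (j : ι) (z : Module.End F ((ι → κ) → F)) (g : M) :
    phi hx M j z (g : M ⧸ NN hx M j) = cj g.1 (Tp j (cj g.1⁻¹ z)) := rfl

theorem phi_act (j : ι) (z : Module.End F ((ι → κ) → F)) (g : M) (Q : M ⧸ NN hx M j) :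
    phi hx M j (cj g.1 z) (g • Q) = cj g.1 (phi hx M j z Q) := by
  obtain ⟨a, rfl⟩ := QuotientGroup.mk_surjective Q
  have e1 : g • ((a : M) : M ⧸ NN hx M j) = ((g * a : M) : M ⧸ NN hx M j) := rfl
  rw [e1, phi_mk, phi_mk]
  have e2 : (g * a : M).1 = g.1 * a.1 := rfl
  rw [e2, mul_inv_rev, ← cj_cj, ← cj_cj, cj_inv_cj]

theorem phi_add (j : ι) (z z' : Module.End F ((ι → κ) → F)) (Q : M ⧸ NN hx M j) :
    phi hx M j (z + z') Q = phi hx M j z Q + phi hx M j z' Q := by
  obtain ⟨a, rfl⟩ := QuotientGroup.mk_surjective Q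
  rw [phi_mk, phi_mk, phi_mk, cj_add', Tp_add, cj_add']

theorem phi_smul (j : ι) (c : F) (z : Module.End F ((ι → κ) → F)) (Q : M ⧸ NN hx M j) :
    phi hx M j (c • z) Q = c • phi hx M j z Q := by
  obtain ⟨a, rfl⟩ := QuotientGroup.mk_surjective Q
  rw [phi_mk, phi_mk, cj_smul', Tp_smul, cj_smul']

/-- commutes with the slot algebra -/
def Cm (i : ι) (c : Module.End F ((ι → κ) → F)) : Prop := ∀ f : Module.End F (κ → F), c * sl i f = sl i f * c

theorem Cm.mul {i : ι} {c c' : Module.End F ((ι → κ) → F)} (h : Cm i c) (h' : Cm i c') : Cm i (c * c') :=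
  fun f => by rw [mul_assoc, h' f, ← mul_assoc, h f, mul_assoc]

/-- A coset whose algebra is that of slot `i`, or commutes with it. -/
def FixC (hx : x ≠ 0) (M : Subgroup (((ι → κ) → F) ≃ₗ[F] ((ι → κ) → F))) (i j : ι) (Q : M ⧸ NN hx M j) : Prop :=
  ∃ g : M, (g : M ⧸ NN hx M j) = Q ∧ (Carries g.1 j i ∨ ∀ f : Module.End F (κ → F), Cm i (cj g.1 (sl j f)))

theorem trace_comm_zero {i : ι} (x₁ x₂ : Module.End F (κ → F)) {ρ : Module.End F ((ι → κ) → F)} (hρ : Cm i ρ) :
    LinearMap.trace F _ (sl i (x₁ * x₂ - x₂ * x₁) * ρ) = 0 := by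
  rw [sl_sub, sl_mul, sl_mul, sub_mul, map_sub]
  have e1 : sl i x₂ * sl i x₁ * ρ = (sl i x₂ * ρ) * sl i x₁ := by rw [mul_assoc, ← hρ, mul_assoc]
  have e2 : sl i x₁ * sl i x₂ * ρ = sl i x₁ * (sl i x₂ * ρ) := by rw [mul_assoc]
  rw [e1, e2, LinearMap.trace_mul_comm, sub_self]

/-- `w ∧ y` is a commutator. -/
theorem nn_eq_comm (hq : Nondeg q) {w y : κ → F} (hw0 : w ≠ 0) (hw : q w = 0) (hy : polar q w y = 0) :
    ∃ x₁ x₂ : Module.End F (κ → F), nn q w y = x₁ * x₂ - x₂ * x₁ := by
  obtain ⟨w', hyp⟩ := LieClassical.OrthTrans.exists_hyp hq hw hw0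
  refine ⟨nn q w' w, nn q w (y - polar q w' y • w), ?_⟩
  have h1 := nn_bracket (nn q w' w) (skew_nn w' w) w (y - polar q w' y • w)
  have e1 : nn q w' w w = w := by
    rw [nn_apply, hyp.polar_left, hyp.pair', zero_smul, one_smul, sub_zero]
  have e2 : nn q w' w (y - polar q w' y • w) = 0 := by
    rw [nn_apply, polar_sub_right, polar_sub_right, polar_smul_right, polar_smul_right, hyp.polar_left, hyp.pair', hy]
    simp
  have e3 : nn q w (y - polar q w' y • w) = nn q w y := by
    rw [nn_sub_right, nn_smul_right, nn_self, smul_zero, sub_zero]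
  have e4 : nn q w 0 = 0 := by
    have := nn_smul_right (q := q) (0 : F) w (0 : κ → F)
    rwa [zero_smul, zero_smul] at this
  rw [e1, e2, e4, add_zero, e3] at h1
  rw [e3]
  exact h1.symm

/-- Commuting cosets contribute nothing. -/
theorem phi_zero_of_comm (hq : Nondeg q) {i j : ι} {g : M} (hg : ∀ f : Module.End F (κ → F), Cm i (cj g.1 (sl j f)))
    {w y : κ → F} (hw0 : w ≠ 0) (hw : q w = 0) (hy : polar q w y = 0) {c : Module.End F ((ι → κ) → F)}
    (hc : Cm i c) : phi hx M j (sl i (nn q w y) * c) (g : M ⧸ NN hx M j) = 0 := by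
  rw [phi_mk]
  have h1 : ptr j (cj g.1⁻¹ (sl i (nn q w y) * c)) = 0 := by
    refine ptr_unique fun f => ?_
    rw [zero_mul, map_zero]
    have e1 : cj g.1⁻¹ (sl i (nn q w y) * c) * sl j f =
        cj g.1⁻¹ (sl i (nn q w y) * (c * cj g.1 (sl j f))) := by
      rw [← mul_assoc, cj_mul' g.1⁻¹ _ (cj g.1 (sl j f)), cj_inv_cj]
    rw [e1, trace_cj]
    obtain ⟨x₁, x₂, hx12⟩ := nn_eq_comm hq hw0 hw hy
    rw [hx12]
    exact trace_comm_zero x₁ x₂ (hc.mul (hg f))
  rw [Tp, h1]
  have : sl (ι := ι) j (0 : Module.End F (κ → F)) = 0 := map_zero (slA j)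
  rw [this, cj_zero']

/-- Carrying cosets contribute an element of the slot algebra. -/
theorem phi_of_carries {i j : ι} {g : M} (hg : Carries g.1 j i) (z : Module.End F ((ι → κ) → F)) :
    ∃ f : Module.End F (κ → F), phi hx M j z (g : M ⧸ NN hx M j) = sl i f := by
  rw [phi_mk, Tp]
  exact carries_iff.1 hg _

end Cfsg.Agent.H900.C7
end

-- part: H900/C7/Moved
section
/-!
# The sum over the moved conjugates
-/

set_option autoImplicit false
set_option linter.unusedSectionVars false
set_option linter.unusedSimpArgs false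
set_option linter.unusedVariables false

namespace Cfsg.Agent.H900.C7

open QuadraticMap hiding proj
open Cfsg.Agent.LieClassical.OrthCore Cfsg.Agent.LieClassical.OrthTrans
open Cfsg.Agent.H882.Ten Cfsg.Agent.H883.C7 Cfsg.Agent.LieClassical.OrthFinite

/-! ### power sums -/

section sums

variable {F : Type*} [Field F] {X : Type*} [AddCommGroup X] [Module F X]

theorem sum_poly [Fintype F] (h0 : ∑ c : F, c ^ 0 = 0) (h1 : ∑ c : F, c ^ 1 = 0) (h3 : ∑ c : F, c ^ 3 = 0)
    (A0 A1 A2 A3 A4 : X) :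
    ∑ c : F, (A0 + c • A1 + (c * c) • A2 + (c * c * c) • A3 + (c * c * (c * c)) • A4) =
      (∑ c : F, c ^ 2) • A2 + (∑ c : F, c ^ 4) • A4 := by
  have e0 : ∑ c : F, A0 = (0 : X) := by
    have : ∑ c : F, A0 = (∑ c : F, c ^ 0) • A0 := by
      rw [Finset.sum_smul]
      exact Finset.sum_congr rfl fun c _ => by rw [pow_zero, one_smul]
    rw [this, h0, zero_smul]
  have e1 : ∑ c : F, c • A1 = 0 := by
    have : ∑ c : F, c • A1 = (∑ c : F, c ^ 1) • A1 := by
      rw [Finset.sum_smul]
      exact Finset.sum_congr rfl fun c _ => by rw [pow_one]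
    rw [this, h1, zero_smul]
  have e2 : ∑ c : F, (c * c) • A2 = (∑ c : F, c ^ 2) • A2 := by
    rw [Finset.sum_smul]
    exact Finset.sum_congr rfl fun c _ => by rw [pow_two]
  have e3 : ∑ c : F, (c * c * c) • A3 = 0 := by
    have : ∑ c : F, (c * c * c) • A3 = (∑ c : F, c ^ 3) • A3 := by
      rw [Finset.sum_smul]
      exact Finset.sum_congr rfl fun c _ => by rw [pow_succ, pow_two]
    rw [this, h3, zero_smul]
  have e4 : ∑ c : F, (c * c * (c * c)) • A4 = (∑ c : F, c ^ 4) • A4 := by
    rw [Finset.sum_smul]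
    exact Finset.sum_congr rfl fun c _ => by congr 1; ring
  rw [Finset.sum_add_distrib, Finset.sum_add_distrib, Finset.sum_add_distrib, Finset.sum_add_distrib, e0, e1, e2, e3,
    e4]
  abel

theorem sums_of_five [Fintype F] (h : 5 ≤ Fintype.card F) :
    ∑ c : F, c ^ 0 = 0 ∧ ∑ c : F, c ^ 1 = 0 ∧ ∑ c : F, c ^ 2 = 0 ∧ ∑ c : F, c ^ 3 = 0 :=
  ⟨FiniteField.sum_pow_lt_card_sub_one (K := F) 0 (by omega), FiniteField.sum_pow_lt_card_sub_one (K := F) 1 (by omega),
    FiniteField.sum_pow_lt_card_sub_one (K := F) 2 (by omega), FiniteField.sum_pow_lt_card_sub_one (K := F) 3 (by omega)⟩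

theorem sums_of_three [Fintype F] (h : Fintype.card F = 3) :
    ∑ c : F, c ^ 0 = 0 ∧ ∑ c : F, c ^ 1 = 0 ∧ ∑ c : F, c ^ 3 = 0 := by
  have h1 : ∑ c : F, c ^ 1 = 0 := FiniteField.sum_pow_lt_card_sub_one (K := F) 1 (by omega)
  refine ⟨FiniteField.sum_pow_lt_card_sub_one (K := F) 0 (by omega), h1, ?_⟩
  rw [← h1]
  refine Finset.sum_congr rfl fun c _ => ?_
  have := FiniteField.pow_card c
  rw [h] at this
  rw [this, pow_one]

theorem three_cases [Fintype F] (h : Fintype.card F = 3) {e : F} (he : e ≠ 0) (c : F) : c = 0 ∨ c = e ∨ c = -e := by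
  have key : ∀ c : F, c ≠ 0 → c * c = 1 := by
    intro c hc
    have := FiniteField.pow_card c
    rw [h] at this
    have h1 : c * (c * c - 1) = 0 := by linear_combination this
    exact sub_eq_zero.1 ((mul_eq_zero.1 h1).resolve_left hc)
  by_cases hc : c = 0
  · exact Or.inl hc
  right
  have h1 := key c hc
  have h2 := key e he
  have h3 : (c - e) * (c + e) = 0 := by linear_combination h1 - h2
  rcases mul_eq_zero.1 h3 with h4 | h4
  · exact Or.inl (sub_eq_zero.1 h4)
  · exact Or.inr (eq_neg_of_add_eq_zero_left h4)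

end sums

variable {F : Type*} [Field F] {κ : Type*} [Fintype κ] [DecidableEq κ] {ι : Type*} [Fintype ι] [DecidableEq ι]
  {q : QuadraticForm F (κ → F)} {M : Subgroup (((ι → κ) → F) ≃ₗ[F] ((ι → κ) → F))}

theorem siegel_inv_eq {w y : κ → F} (hw : q w = 0) (hy : polar q w y = 0) (hy' : polar q w (-y) = 0) :
    (siegel q w y hw hy)⁻¹ = siegel q w (-y) hw hy' := siegel_inv hw hy hy'

theorem cj_siegel (i : ι) {w y : κ → F} (hw : q w = 0) (hy : polar q w y = 0) (Y : Module.End F ((ι → κ) → F)) :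
    cj (slE i (siegel q w y hw hy)) Y = Y + (sl i (nn q w y) * Y - Y * sl i (nn q w y)) -
      q y • (sl i (om q w) * Y + Y * sl i (om q w)) - sl i (nn q w y) * Y * sl i (nn q w y) +
      q y • (sl i (om q w) * Y * sl i (nn q w y) - sl i (nn q w y) * Y * sl i (om q w)) +
      (q y * q y) • (sl i (om q w) * Y * sl i (om q w)) := by
  have hy' : polar q w (-y) = 0 := by rw [polar_neg_right, hy, neg_zero]
  rw [cj_eq_mul, ← map_inv, siegel_inv_eq hw hy hy', slE_toEnd, slE_toEnd, siegel_eq, siegel_eq, sl_sub, sl_add, sl_one,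
    sl_smul, sl_sub, sl_add, sl_one, sl_smul, QuadraticMap.map_neg]
  have e1 : sl (ι := ι) i (nn q w (-y)) = (-1 : F) • sl i (nn q w y) := by
    rw [← sl_smul, ← nn_smul_right, neg_one_smul]
  rw [e1]
  simp only [add_mul, mul_add, sub_mul, mul_sub, one_mul, mul_one, smul_mul_assoc, mul_smul_comm, smul_smul, mul_assoc]
  module

theorem cj_siegel_comm (i : ι) {w y : κ → F} (hw : q w = 0) (hy : polar q w y = 0) {z : Module.End F ((ι → κ) → F)}
    (h1 : z * sl i (nn q w y) = sl i (nn q w y) * z) (h2 : z * sl i (om q w) = sl i (om q w) * z) :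
    cj (slE i (siegel q w y hw hy)) z = z := by
  rw [cj_eq_iff, slE_toEnd, siegel_eq, sl_sub, sl_add, sl_one, sl_smul, mul_sub, mul_add, sub_mul, add_mul, h1,
    mul_one, one_mul, mul_smul_comm, smul_mul_assoc, h2]

section ctx

variable {x : κ → F} {hx : x ≠ 0}

theorem fixC_smul {i j : ι} (s : M) {t : (κ → F) ≃ₗ[F] (κ → F)} (hs : s.1 = slE i t) {Q : M ⧸ NN hx M j}
    (h : FixC hx M i j Q) : FixC hx M i j (s • Q) := by
  obtain ⟨g, rfl, hg⟩ := h
  refine ⟨s * g, rfl, ?_⟩
  rcases hg with hg | hg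
  · left
    have : (s * g : M).1 = s.1 * g.1 := rfl
    rw [this]
    exact carries_comp hg (by rw [hs]; exact carries_slE i t)
  · right
    intro f
    have e1 : (s * g : M).1 = s.1 * g.1 := rfl
    have e2 : cj (s * g : M).1 (sl j f) = cj g.1 (sl j f) := by
      rw [e1, ← cj_cj, cj_eq_iff, hs, slE_toEnd]
      exact (hg f _).symm
    rw [e2]
    exact hg f

theorem fixC_of_fixed [Finite F] (C : Ctx q M) {i j : ι} {w y : κ → F} (hw0 : w ≠ 0) (hw : q w = 0)
    (hy : polar q w y = 0) (hqy : q y ≠ 0) {s : M} (hs : s.1 = slE i (siegel q w y hw hy)) {Q : M ⧸ NN hx M j}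
    (h : s • Q = Q) : FixC hx M i j Q := by
  obtain ⟨a, rfl⟩ := QuotientGroup.mk_surjective Q
  have e1 : s • ((a : M) : M ⧸ NN hx M j) = ((s * a : M) : M ⧸ NN hx M j) := rfl
  rw [e1, eq_comm, QuotientGroup.eq, mem_NN] at h
  have e2 : (a⁻¹ * (s * a) : M).1 = a.1⁻¹ * slE i (siegel q w y hw hy) * a.1 := by
    rw [← hs, mul_assoc]; rfl
  rw [e2] at h
  refine ⟨a, rfl, ?_⟩
  rcases fix C a.2 hw0 hw hy hqy h with h1 | h1
  · exact Or.inl h1
  · exact Or.inr fun f f' => h1 f f'

open scoped Classical in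
/-- The moved cosets. -/
noncomputable def SM (hx : x ≠ 0) (M : Subgroup (((ι → κ) → F) ≃ₗ[F] ((ι → κ) → F))) (i j : ι)
    [Fintype (M ⧸ NN hx M j)] : Finset (M ⧸ NN hx M j) :=
  Finset.univ.filter fun Q => ¬ FixC hx M i j Q

open scoped Classical in
theorem mem_SM {i j : ι} [Fintype (M ⧸ NN hx M j)] (Q : M ⧸ NN hx M j) : Q ∈ SM hx M i j ↔ ¬ FixC hx M i j Q := by
  rw [SM, Finset.mem_filter]
  simp

theorem smul_mem_SM {i j : ι} [Fintype (M ⧸ NN hx M j)] (s : M) {t : (κ → F) ≃ₗ[F] (κ → F)} (hs : s.1 = slE i t)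
    {Q : M ⧸ NN hx M j} (h : Q ∈ SM hx M i j) : s • Q ∈ SM hx M i j := by
  rw [mem_SM] at h ⊢
  intro h1
  apply h
  have h3 := fixC_smul s⁻¹ (t := t⁻¹) (by
    have : (s⁻¹ : M).1 = s.1⁻¹ := rfl
    rw [this, hs, map_inv]) h1
  rwa [inv_smul_smul] at h3

/-- The sum over the moved cosets. -/
noncomputable def EM (hx : x ≠ 0) (M : Subgroup (((ι → κ) → F) ≃ₗ[F] ((ι → κ) → F))) (i j : ι)
    [Fintype (M ⧸ NN hx M j)] (z : Module.End F ((ι → κ) → F)) : Module.End F ((ι → κ) → F) :=
  ∑ Q ∈ SM hx M i j, phi hx M j z Q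

theorem EM_add {i j : ι} [Fintype (M ⧸ NN hx M j)] (z z' : Module.End F ((ι → κ) → F)) :
    EM hx M i j (z + z') = EM hx M i j z + EM hx M i j z' := by
  simp only [EM, phi_add, Finset.sum_add_distrib]

theorem EM_smul {i j : ι} [Fintype (M ⧸ NN hx M j)] (c : F) (z : Module.End F ((ι → κ) → F)) :
    EM hx M i j (c • z) = c • EM hx M i j z := by
  simp only [EM, phi_smul, Finset.smul_sum]

theorem EM_cj {i j : ι} [Fintype (M ⧸ NN hx M j)] (s : M) {t : (κ → F) ≃ₗ[F] (κ → F)} (hs : s.1 = slE i t)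
    (z : Module.End F ((ι → κ) → F)) : EM hx M i j (cj s.1 z) = cj s.1 (EM hx M i j z) := by
  have e1 : cj s.1 (EM hx M i j z) = ∑ Q ∈ SM hx M i j, cj s.1 (phi hx M j z Q) := by
    rw [EM, ← cjL_apply, map_sum]; rfl
  rw [e1, EM]
  symm
  refine Finset.sum_bij (fun Q _ => s • Q) (fun Q hQ => smul_mem_SM s hs hQ)
    (fun Q _ Q' _ h => MulAction.injective s h) (fun Q hQ => ⟨s⁻¹ • Q, ?_, smul_inv_smul s Q⟩)
    (fun Q _ => (phi_act j z s Q).symm)
  exact smul_mem_SM s⁻¹ (t := t⁻¹) (by
    have : (s⁻¹ : M).1 = s.1⁻¹ := rfl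
    rw [this, hs, map_inv]) hQ

/-- The moved sum is a trace. -/
theorem exists_trace [Finite F] (C : Ctx q M) {i j : ι} [Fintype (M ⧸ NN hx M j)] {w : κ → F} (hw0 : w ≠ 0)
    (hw : q w = 0) {A : Type*} [AddCommGroup A] [Fintype A] (y : A →+ (κ → F)) (hy : ∀ a, polar q w (y a) = 0)
    (hqy : ∀ a, q (y a) = 0 → a = 0) {z : Module.End F ((ι → κ) → F)}
    (hz : ∀ a, cj (slE i (siegel q w (y a) hw (hy a))) z = z) :
    ∃ Y : Module.End F ((ι → κ) → F), EM hx M i j z = ∑ a, cj (slE i (siegel q w (y a) hw (hy a))) Y := by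
  classical
  let s : A → M := fun a => ⟨slE i (siegel q w (y a) hw (hy a)), C.siegel_mem i hw (hy a)⟩
  have hs0 : s 0 = 1 := by
    apply Subtype.ext
    show slE i (siegel q w (y 0) hw (hy 0)) = 1
    have : siegel q w (y 0) hw (hy 0) = 1 := by
      ext v : 1
      rw [siegel_apply, map_zero, polar_zero_left, QuadraticMap.map_zero]
      simp
    rw [this, map_one]
  have hsadd : ∀ a b, s (a + b) = s a * s b := by
    intro a b
    apply Subtype.ext
    show slE i (siegel q w (y (a + b)) hw (hy (a + b))) =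
      slE i (siegel q w (y a) hw (hy a)) * slE i (siegel q w (y b) hw (hy b))
    rw [← map_mul, siegel_mul hw (hy a) (hy b) (by rw [polar_add_right, hy, hy, add_zero])]
    congr 1
    ext v : 1
    rw [siegel_apply, siegel_apply, map_add]
  refine H889.C7.free_sum (fun a Q => s a • Q) (fun Q => by rw [hs0, one_smul])
    (fun a b Q => by rw [hsadd, mul_smul]) (fun a => (cjL (s a).1).toAddMonoidHom) (phi hx M j z) ?_ (SM hx M i j) ?_ ?_
  · intro a Q
    have h1 := phi_act j z (s a) Q
    have h2 : cj (s a).1 z = z := hz a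
    rw [h2] at h1
    exact h1
  · intro a Q hQ
    exact smul_mem_SM (s a) rfl hQ
  · intro a Q hQ h
    by_contra ha
    rw [mem_SM] at hQ
    exact hQ (fixC_of_fixed C hw0 hw (hy a) (fun h0 => ha (hqy a h0)) rfl h)

/-- Two orthogonal vectors with the same value over the field with three elements. -/
theorem exists_pair [Fintype F] (H : Hyp7 q) (h3 : Fintype.card F = 3) {w : κ → F} (hw0 : w ≠ 0) (hw : q w = 0) :
    ∃ y₁ y₂, polar q w y₁ = 0 ∧ polar q w y₂ = 0 ∧ polar q y₁ y₂ = 0 ∧ q y₁ = q y₂ ∧ q y₁ ≠ 0 := by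
  have h2 := H.two
  have hq := H.nd
  have hk3 := H.three
  have hk4 : 4 ≤ Fintype.card κ := by
    have h5 := H.five
    rw [Nat.card_eq_fintype_card, h3] at h5
    by_contra hcon
    have := h5 (by omega)
    omega
  have hfr : Module.finrank F (κ → F) = Fintype.card κ := Module.finrank_fintype_fun_eq_card F
  obtain ⟨w', hyp⟩ := LieClassical.OrthTrans.exists_hyp hq hw hw0
  obtain ⟨h, hh1, hh2, hh3⟩ := exists_nonsing_perp hq (by rw [hfr]; exact hk3) hyp
  -- singular vectors in the orthogonal space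
  have claim : ∀ z, z ≠ 0 → polar q w z = 0 → polar q w' z = 0 → polar q h z = 0 → q z = 0 →
      ∃ y₁ y₂, polar q w y₁ = 0 ∧ polar q w y₂ = 0 ∧ polar q y₁ y₂ = 0 ∧ q y₁ = q y₂ ∧ q y₁ ≠ 0 := by
    intro z hz0 hz1 hz2 hz3 hz4
    obtain ⟨z', hz'⟩ := hq.exists_polar_eq hz0 1
    have hhh : polar q h h ≠ 0 := by rw [polar_self']; exact mul_ne_zero h2 hh3
    set z'' := z' - polar q w' z' • w - polar q w z' • w' - (polar q h z' * (polar q h h)⁻¹) • h with hz''
    have a1 : polar q w z'' = 0 := by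
      rw [hz'']
      simp only [polar_sub_right, polar_smul_right, hyp.polar_left, hyp.pair, hh1, smul_eq_mul]
      ring
    have a2 : polar q w' z'' = 0 := by
      rw [hz'']
      simp only [polar_sub_right, polar_smul_right, hyp.polar_right, hyp.pair', hh2, smul_eq_mul]
      ring
    have a3 : polar q h z'' = 0 := by
      rw [hz'']
      simp only [polar_sub_right, polar_smul_right, polar_comm q h w, polar_comm q h w', hh1, hh2, smul_eq_mul]
      rw [mul_assoc, inv_mul_cancel₀ hhh]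
      ring
    have a4 : polar q z z'' = 1 := by
      rw [hz'']
      simp only [polar_sub_right, polar_smul_right, polar_comm q z w, polar_comm q z w', polar_comm q z h, hz1, hz2,
        hz3, hz', smul_eq_mul]
      ring
    refine ⟨h, (q h - q z'') • z + z'', hh1, ?_, ?_, ?_, hh3⟩
    · rw [polar_add_right, polar_smul_right, hz1, a1, smul_zero, add_zero]
    · rw [polar_add_right, polar_smul_right, hz3, a3, smul_zero, add_zero]
    · rw [Q_add, QuadraticMap.map_smul, hz4, polar_smul_left, a4]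
      simp
  obtain ⟨z, hz0, hz⟩ := exists_perp_ne (Q := q) ![w, w', h] (by rw [hfr]; omega)
  have b1 : polar q w z = 0 := hz 0
  have b2 : polar q w' z = 0 := hz 1
  have b3 : polar q h z = 0 := hz 2
  rcases three_cases h3 hh3 (q z) with h4 | h4 | h4
  · exact claim z hz0 b1 b2 b3 h4
  · exact ⟨h, z, hh1, b1, b3, h4.symm, hh3⟩
  · by_cases hk : Fintype.card κ = 4
    · exfalso
      have c1 : q (h + z) = 0 := by rw [Q_add, b3, h4]; ring
      have c2 : polar q w (h + z) = 0 := by rw [polar_add_right, hh1, b1, add_zero]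
      obtain ⟨c, hc⟩ := H.four hk w (h + z) hw0 hw c1 c2
      have c3 : polar q w' (h + z) = 0 := by rw [polar_add_right, hh2, b2, add_zero]
      rw [hc, polar_smul_right, hyp.pair', smul_eq_mul, mul_one] at c3
      rw [c3, zero_smul] at hc
      have c4 := congrArg (polar q h) hc
      rw [polar_add_right, b3, add_zero, polar_zero_right, polar_self'] at c4
      exact mul_ne_zero h2 hh3 c4
    · obtain ⟨z₃, hz₃0, hz₃⟩ := exists_perp_ne (Q := q) ![w, w', h, z] (by rw [hfr]; omega)
      have d1 : polar q w z₃ = 0 := hz₃ 0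
      have d2 : polar q w' z₃ = 0 := hz₃ 1
      have d3 : polar q h z₃ = 0 := hz₃ 2
      have d4 : polar q z z₃ = 0 := hz₃ 3
      rcases three_cases h3 hh3 (q z₃) with h5 | h5 | h5
      · exact claim z₃ hz₃0 d1 d2 d3 h5
      · exact ⟨h, z₃, hh1, d1, d3, h5.symm, hh3⟩
      · exact ⟨z, z₃, b1, d1, d4, by rw [h4, h5], by rw [h4]; exact neg_ne_zero.2 hh3⟩

/-- **The form of the moved sum.** -/
theorem moved_form [Finite F] (C : Ctx q M) {i j : ι} [Fintype (M ⧸ NN hx M j)] {w : κ → F} (hw0 : w ≠ 0)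
    (hw : q w = 0) {z : Module.End F ((ι → κ) → F)}
    (hz : ∀ (y : κ → F) (hy : polar q w y = 0), cj (slE i (siegel q w y hw hy)) z = z) :
    ∃ T : Module.End F ((ι → κ) → F), EM hx M i j z = sl i (om q w) * T * sl i (om q w) := by
  classical
  have := Fintype.ofFinite F
  have h2 := C.h7.two
  have hq := C.h7.nd
  have hk3 := C.h7.three
  have hfr : Module.finrank F (κ → F) = Fintype.card κ := Module.finrank_fintype_fun_eq_card F
  by_cases h5 : 5 ≤ Fintype.card F
  · obtain ⟨w', hyp⟩ := LieClassical.OrthTrans.exists_hyp hq hw hw0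
    obtain ⟨y₀, hy₀, -, hqy₀⟩ := exists_nonsing_perp hq (by rw [hfr]; exact hk3) hyp
    let y : F →+ (κ → F) := (LinearMap.toSpanSingleton F (κ → F) y₀).toAddMonoidHom
    have hy : ∀ a, polar q w (y a) = 0 := fun a => by
      show polar q w (a • y₀) = 0
      rw [polar_smul_right, hy₀, smul_zero]
    obtain ⟨Y, hY⟩ := exists_trace C (i := i) (j := j) (hx := hx) hw0 hw y hy (fun a ha => by
      have h1 : q (a • y₀) = 0 := ha
      rw [QuadraticMap.map_smul, smul_eq_mul] at h1
      exact mul_self_eq_zero.1 ((mul_eq_zero.1 h1).resolve_right hqy₀)) (fun a => hz _ (hy a))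
    obtain ⟨s0, s1, s2, s3⟩ := sums_of_five h5
    set N := sl (ι := ι) i (nn q w y₀) with hN
    set Ω := sl (ι := ι) i (om q w) with hΩ
    have h1 : ∀ a, cj (slE i (siegel q w (y a) hw (hy a))) Y = Y + a • (N * Y - Y * N) +
        (a * a) • (-(q y₀ • (Ω * Y + Y * Ω)) - N * Y * N) +
        (a * a * a) • (q y₀ • (Ω * Y * N - N * Y * Ω)) + (a * a * (a * a)) • ((q y₀ * q y₀) • (Ω * Y * Ω)) := by
      intro a
      have e1 : nn q w (y a) = a • nn q w y₀ := nn_smul_right a w y₀
      have e2 : q (y a) = a * a * q y₀ := by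
        show q (a • y₀) = _
        rw [QuadraticMap.map_smul, smul_eq_mul]
      rw [cj_siegel, e1, e2, sl_smul, ← hN, ← hΩ]
      simp only [smul_mul_assoc, mul_smul_comm]
      module
    simp only [h1] at hY
    have h8 := hY.trans (sum_poly s0 s1 s3 _ _ _ _ _)
    rw [s2, zero_smul, zero_add] at h8
    refine ⟨((∑ c : F, c ^ 4) * (q y₀ * q y₀)) • Y, ?_⟩
    rw [h8, mul_smul_comm, smul_mul_assoc, smul_smul]
  · have h3 : Fintype.card F = 3 := by
      have hlt : 1 < Fintype.card F := Fintype.one_lt_card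
      have hne2 : ¬ 2 ∣ Fintype.card F := by
        rintro ⟨m, hm⟩
        have h1 := FiniteField.cast_card_eq_zero F
        rw [hm] at h1
        push_cast at h1
        have h4 : ((m : ℕ) : F) = 0 := (mul_eq_zero.1 h1).resolve_left h2
        -- `card F = 2 m` with `m = 1, 2`
        have h6 : m = 1 ∨ m = 2 := by omega
        rcases h6 with rfl | rfl
        · simp at h4
        · exact h2 (by exact_mod_cast h4)
      omega
    obtain ⟨y₁, y₂, hy₁, hy₂, hy₁₂, hqe, hq1⟩ := exists_pair C.h7 h3 hw0 hw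
    let y : F × F →+ (κ → F) :=
      ((LinearMap.toSpanSingleton F (κ → F) y₁).coprod (LinearMap.toSpanSingleton F (κ → F) y₂)).toAddMonoidHom
    have hya : ∀ a, y a = a.1 • y₁ + a.2 • y₂ := fun a => rfl
    have hy : ∀ a, polar q w (y a) = 0 := fun a => by
      rw [hya, polar_add_right, polar_smul_right, polar_smul_right, hy₁, hy₂, smul_zero, smul_zero, add_zero]
    have hqa : ∀ a, q (y a) = (a.1 * a.1 + a.2 * a.2) * q y₁ := fun a => by
      rw [hya, Q_add, QuadraticMap.map_smul, QuadraticMap.map_smul, polar_smul_left, polar_smul_right, hy₁₂, ← hqe]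
      simp only [smul_eq_mul]
      ring
    obtain ⟨Y, hY⟩ := exists_trace C (i := i) (j := j) (hx := hx) hw0 hw y hy (fun a ha => by
      rw [hqa] at ha
      have h1 := (mul_eq_zero.1 ha).resolve_right hq1
      have key : ∀ c : F, c ≠ 0 → c * c = 1 := by
        intro c hc
        rcases three_cases h3 one_ne_zero c with h | h | h
        · exact absurd h hc
        · rw [h, one_mul]
        · rw [h]; ring
      have h10 : (1 : F) ≠ 0 := one_ne_zero
      by_cases ha1 : a.1 = 0
      · rw [ha1, zero_mul, zero_add] at h1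
        exact Prod.ext ha1 (mul_self_eq_zero.1 h1)
      · exfalso
        rw [key _ ha1] at h1
        by_cases ha2 : a.2 = 0
        · rw [ha2, zero_mul, add_zero] at h1
          exact h10 h1
        · rw [key _ ha2] at h1
          exact h2 (by rw [← h1]; norm_num)) (fun a => hz _ (hy a))
    obtain ⟨s0, s1, s3⟩ := sums_of_three h3
    set N₁ := sl (ι := ι) i (nn q w y₁) with hN₁
    set N₂ := sl (ι := ι) i (nn q w y₂) with hN₂
    set Ω := sl (ι := ι) i (om q w) with hΩ
    set e := q y₁ with he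
    have h1 : ∀ a b : F, cj (slE i (siegel q w (y (a, b)) hw (hy (a, b)))) Y =
        (Y + a • (N₁ * Y - Y * N₁) - ((a * a) * e) • (Ω * Y + Y * Ω) - (a * a) • (N₁ * Y * N₁) +
          ((a * a * a) * e) • (Ω * Y * N₁ - N₁ * Y * Ω) + ((a * a) * (a * a) * (e * e)) • (Ω * Y * Ω)) +
        b • ((N₂ * Y - Y * N₂) - a • (N₁ * Y * N₂ + N₂ * Y * N₁) + ((a * a) * e) • (Ω * Y * N₂ - N₂ * Y * Ω)) +
        (b * b) • ((-(e • (Ω * Y + Y * Ω)) - N₂ * Y * N₂) + a • (e • (Ω * Y * N₁ - N₁ * Y * Ω)) +
          (a * a) • ((2 * (e * e)) • (Ω * Y * Ω)) + (a * a * a) • (0 : Module.End F ((ι → κ) → F)) +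
          (a * a * (a * a)) • (0 : Module.End F ((ι → κ) → F))) +
        (b * b * b) • (e • (Ω * Y * N₂ - N₂ * Y * Ω)) +
        (b * b * (b * b)) • ((e * e) • (Ω * Y * Ω)) := by
      intro a b
      have e1 : nn q w (y (a, b)) = a • nn q w y₁ + b • nn q w y₂ := by
        rw [hya, nn_add_right, nn_smul_right, nn_smul_right]
      rw [cj_siegel, e1, hqa, sl_add, sl_smul, sl_smul, ← hN₁, ← hN₂, ← hΩ]
      simp only [add_mul, mul_add, smul_mul_assoc, mul_smul_comm]
      module
    rw [Fintype.sum_prod_type] at hY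
    simp only [h1] at hY
    have h6 : ∀ a : F, ∑ b : F,
        ((Y + a • (N₁ * Y - Y * N₁) - ((a * a) * e) • (Ω * Y + Y * Ω) - (a * a) • (N₁ * Y * N₁) +
          ((a * a * a) * e) • (Ω * Y * N₁ - N₁ * Y * Ω) + ((a * a) * (a * a) * (e * e)) • (Ω * Y * Ω)) +
        b • ((N₂ * Y - Y * N₂) - a • (N₁ * Y * N₂ + N₂ * Y * N₁) + ((a * a) * e) • (Ω * Y * N₂ - N₂ * Y * Ω)) +
        (b * b) • ((-(e • (Ω * Y + Y * Ω)) - N₂ * Y * N₂) + a • (e • (Ω * Y * N₁ - N₁ * Y * Ω)) +
          (a * a) • ((2 * (e * e)) • (Ω * Y * Ω)) + (a * a * a) • (0 : Module.End F ((ι → κ) → F)) +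
          (a * a * (a * a)) • (0 : Module.End F ((ι → κ) → F))) +
        (b * b * b) • (e • (Ω * Y * N₂ - N₂ * Y * Ω)) +
        (b * b * (b * b)) • ((e * e) • (Ω * Y * Ω))) = _ := fun a => sum_poly s0 s1 s3 _ _ _ _ _
    simp only [h6] at hY
    have h8 : ∑ a : F, ((-(e • (Ω * Y + Y * Ω)) - N₂ * Y * N₂) + a • (e • (Ω * Y * N₁ - N₁ * Y * Ω)) +
          (a * a) • ((2 * (e * e)) • (Ω * Y * Ω)) + (a * a * a) • (0 : Module.End F ((ι → κ) → F)) +
          (a * a * (a * a)) • (0 : Module.End F ((ι → κ) → F))) = (∑ c : F, c ^ 2) • ((2 * (e * e)) • (Ω * Y * Ω)) +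
          (∑ c : F, c ^ 4) • (0 : Module.End F ((ι → κ) → F)) := sum_poly s0 s1 s3 _ _ _ _ _
    rw [Finset.sum_add_distrib, ← Finset.smul_sum, h8, smul_zero, add_zero] at hY
    have h7 : ∑ c : F, (∑ c : F, c ^ 4) • (e * e) • (Ω * Y * Ω) = 0 := by
      rw [Finset.sum_const, Finset.card_univ, h3, ← Nat.cast_smul_eq_nsmul F]
      have : ((3 : ℕ) : F) = 0 := by rw [← h3]; exact FiniteField.cast_card_eq_zero F
      rw [this, zero_smul]
    rw [h7, add_zero] at hY
    refine ⟨((∑ c : F, c ^ 2) * ((∑ c : F, c ^ 2) * (2 * (e * e)))) • Y, ?_⟩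
    rw [hY, mul_smul_comm, smul_mul_assoc, smul_smul, smul_smul, mul_assoc]

end ctx

end Cfsg.Agent.H900.C7
end

-- part: H900/C7/Sum
section
/-!
# The equivariant operator `Φ`
-/

set_option autoImplicit false
set_option linter.unusedSectionVars false
set_option linter.unusedSimpArgs false
set_option linter.unusedVariables false

namespace Cfsg.Agent.H900.C7

open QuadraticMap hiding proj
open Cfsg.Agent.LieClassical.OrthCore Cfsg.Agent.LieClassical.OrthTrans
open Cfsg.Agent.H882.Ten Cfsg.Agent.H883.C7 Cfsg.Agent.LieClassical.OrthFinite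

variable {F : Type*} [Field F] {κ : Type*} [Fintype κ] [DecidableEq κ] {ι : Type*} [Fintype ι] [DecidableEq ι]
  {q : QuadraticForm F (κ → F)} {M : Subgroup (((ι → κ) → F) ≃ₗ[F] ((ι → κ) → F))}

theorem cj_nn {V : Type*} [AddCommGroup V] [Module F V] {Q : QuadraticForm F V} {t : V ≃ₗ[F] V} (ht : t ∈ O Q)
    (a b : V) : cj t (nn Q a b) = nn Q (t a) (t b) := by
  ext v
  have h1 : ∀ u, t (t⁻¹ u) = u := fun u => LinearEquiv.apply_symm_apply t u
  rw [cj_apply, nn_apply, nn_apply, map_sub, map_smul, map_smul]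
  conv_rhs => rw [← h1 v]
  rw [polar_map ht, polar_map ht]

theorem Cm.cj_slE {i : ι} {c : Module.End F ((ι → κ) → F)} (hc : Cm i c) (t : (κ → F) ≃ₗ[F] (κ → F)) :
    cj (slE i t) c = c := by
  rw [cj_eq_iff, slE_toEnd, hc]

theorem cj_slE_mul {i : ι} {c : Module.End F ((ι → κ) → F)} (hc : Cm i c) (t : (κ → F) ≃ₗ[F] (κ → F))
    (f : Module.End F (κ → F)) : cj (slE i t) (sl i f * c) = sl i (cj t f) * c := by
  rw [cj_mul', C7.cj_slE, hc.cj_slE]

theorem slot_comm {i : ι} {c : Module.End F ((ι → κ) → F)} (hc : Cm i c) {f f' : Module.End F (κ → F)}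
    (h : f * f' = f' * f) : sl i f * c * sl i f' = sl i f' * (sl i f * c) := by
  rw [mul_assoc, hc, ← mul_assoc, ← sl_mul, h, sl_mul, mul_assoc]

section ctx

variable {x : κ → F} {hx : x ≠ 0}

/-- **The moved sum vanishes.** -/
theorem EM_zero [Finite F] (C : Ctx q M) {i j : ι} [Fintype (M ⧸ NN hx M j)] {w y : κ → F} (hw0 : w ≠ 0)
    (hw : q w = 0) (hy : polar q w y = 0) (hqy : q y ≠ 0) {c : Module.End F ((ι → κ) → F)} (hc : Cm i c) :
    EM hx M i j (sl i (nn q w y) * c) = 0 := by
  have h2 := C.h7.two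
  have hq := C.h7.nd
  obtain ⟨w', hyp⟩ := LieClassical.OrthTrans.exists_hyp hq hw hw0
  -- the form of the values
  have form : ∀ (w₁ y₁ : κ → F), w₁ ≠ 0 → q w₁ = 0 → polar q w₁ y₁ = 0 → ∃ T : Module.End F ((ι → κ) → F),
      EM hx M i j (sl i (nn q w₁ y₁) * c) = sl i (om q w₁) * T * sl i (om q w₁) := by
    intro w₁ y₁ hw₁0 hw₁ hy₁
    refine moved_form C hw₁0 hw₁ fun y' hy' => cj_siegel_comm i hw₁ hy' (slot_comm hc ?_) (slot_comm hc ?_)
    · rw [nn_mul_perp hw₁ hy₁ hy', nn_mul_perp hw₁ hy' hy₁, polar_comm]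
    · rw [nn_om hw₁ hy₁, om_nn hw₁ hy₁]
  set z := y - polar q w' y • w with hz
  have hwz : polar q w z = 0 := by rw [hz, polar_sub_right, polar_smul_right, hy, hyp.polar_left]; simp
  have hw'z : polar q w' z = 0 := by rw [hz, polar_sub_right, polar_smul_right, hyp.pair']; simp
  have hzw' : polar q z w' = 0 := by rw [polar_comm]; exact hw'z
  have hzw : polar q z w = 0 := by rw [polar_comm]; exact hwz
  have hqz : q z = q y := by
    rw [hz, sub_eq_add_neg, ← neg_smul, Q_add, QuadraticMap.map_smul, hw, polar_smul_right, polar_comm q y w, hy]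
    simp
  have hqz0 : q z ≠ 0 := by rw [hqz]; exact hqy
  have hz0 : z ≠ 0 := by
    intro h
    rw [h, QuadraticMap.map_zero] at hqz0
    exact hqz0 rfl
  have hnn : nn q w z = nn q w y := by rw [hz, nn_sub_right, nn_smul_right, nn_self, smul_zero, sub_zero]
  rw [← hnn]
  clear_value z
  have hmz : polar q w' (-z) = 0 := by rw [polar_neg_right, hw'z, neg_zero]
  -- the two Siegel elements
  set t := siegel q w' z hyp.right hw'z with ht
  set t' := siegel q w' (-z) hyp.right hmz with ht'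
  have htt' : t⁻¹ = t' := siegel_inv hyp.right hw'z hmz
  have htt : t'⁻¹ = t := by rw [← htt', inv_inv]
  have t1 : t w = w + z - q z • w' := by
    rw [ht, siegel_apply, hyp.pair', hzw]
    module
  have t2 : t z = z - (2 * q z) • w' := by
    rw [ht, siegel_apply, hw'z, polar_self']
    module
  have t1' : t' w = w - z - q z • w' := by
    rw [ht', siegel_apply, hyp.pair', polar_neg_left, hzw, QuadraticMap.map_neg]
    module
  have t2' : t' z = z + (2 * q z) • w' := by
    rw [ht', siegel_apply, hw'z, polar_neg_left, polar_self']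
    module
  have htO : t ∈ O q := siegel_mem_O _ _
  have htO' : t' ∈ O q := siegel_mem_O _ _
  let s : M := ⟨slE i t, C.siegel_mem i hyp.right hw'z⟩
  let s' : M := ⟨slE i t', C.siegel_mem i hyp.right hmz⟩
  set Z := sl (ι := ι) i (nn q w z) * c with hZ
  have e1 : cj s.1 Z = sl i (nn q (w + z - q z • w') (z - (2 * q z) • w')) * c := by
    show cj (slE i t) Z = _
    rw [hZ, cj_slE_mul hc, cj_nn htO, t1, t2]
  have e2 : cj s'.1 Z = sl i (nn q (w - z - q z • w') (z + (2 * q z) • w')) * c := by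
    show cj (slE i t') Z = _
    rw [hZ, cj_slE_mul hc, cj_nn htO', t1', t2']
  have e3 : cj s.1 Z + cj s'.1 Z = (2 : F) • Z + (2 * q z) • (sl i (nn q w' z) * c) := by
    rw [e1, e2, hZ, ← add_mul, ← sl_add, ← smul_mul_assoc, ← smul_mul_assoc, ← add_mul, ← sl_smul, ← sl_smul,
      ← sl_add]
    congr 2
    simp only [nn_add_left, nn_sub_left, nn_add_right, nn_sub_right, nn_smul_left, nn_smul_right, nn_self]
    rw [nn_swap z w']
    module
  have e4 := congrArg (EM hx M i j) e3
  rw [EM_add, EM_add, EM_smul, EM_smul, EM_cj s (t := t) rfl, EM_cj s' (t := t') rfl] at e4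
  obtain ⟨T, hT⟩ := form w z hw0 hw hwz
  obtain ⟨T', hT'⟩ := form w' z hyp.right_ne hyp.right hw'z
  rw [← hZ] at hT
  rw [hT'] at e4
  set X := EM hx M i j Z with hX
  -- values
  have v0 : ∀ a, X (ten F κ i a z) = 0 := by
    intro a
    rw [hT, Module.End.mul_apply, sl_ten, om_apply, hwz, zero_smul, map_zero, map_zero]
  have v1 : ∀ a, ∃ b, X (ten F κ i a w') = ten F κ i b w := by
    intro a
    rw [hT, Module.End.mul_apply, Module.End.mul_apply, om_eq_smulRight, sl_smulRight]
    exact ⟨_, rfl⟩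
  have v2 : ∀ a, X (ten F κ i a w') = 0 := by
    intro a
    obtain ⟨b, hb⟩ := v1 a
    have e5 := LinearMap.congr_fun e4 (ten F κ i a z)
    rw [LinearMap.add_apply, LinearMap.add_apply, LinearMap.smul_apply, LinearMap.smul_apply, v0, smul_zero, zero_add,
      Module.End.mul_apply, Module.End.mul_apply, sl_ten, om_apply, hw'z, zero_smul, map_zero, map_zero, map_zero,
      smul_zero, cj_apply, cj_apply] at e5
    have f1 : (s.1)⁻¹ (ten F κ i a z) = ten F κ i a (z + (2 * q z) • w') := by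
      show (slE i t)⁻¹ (ten F κ i a z) = _
      rw [← map_inv, slE_ten, htt', t2']
    have f2 : (s'.1)⁻¹ (ten F κ i a z) = ten F κ i a (z - (2 * q z) • w') := by
      show (slE i t')⁻¹ (ten F κ i a z) = _
      rw [← map_inv, slE_ten, htt, t2]
    have f3 : ∀ b, s.1 (ten F κ i b w) = ten F κ i b (w + z - q z • w') := fun b => by
      show slE i t (ten F κ i b w) = _
      rw [slE_ten, t1]
    have f4 : ∀ b, s'.1 (ten F κ i b w) = ten F κ i b (w - z - q z • w') := fun b => by
      show slE i t' (ten F κ i b w) = _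
      rw [slE_ten, t1']
    rw [f1, f2] at e5
    simp only [map_add, map_sub, map_smul, map_neg, v0, hb, zero_add, zero_sub, f3, f4] at e5
    simp only [← map_add, ← map_sub, ← map_smul] at e5
    have e6 : (4 * q z) • ten F κ i b z = 0 := by
      rw [← e5]
      simp only [map_add, map_sub, map_smul]
      module
    have h4 : (4 : F) * q z ≠ 0 := by
      have : (4 : F) = 2 * 2 := by norm_num
      rw [this]
      exact mul_ne_zero (mul_ne_zero h2 h2) hqz0
    have e7 := (smul_eq_zero.1 e6).resolve_left h4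
    have hb0 := eq_zero_of_t (isTen F κ i) e7 hz0
    rw [hb, hb0, map_zero, LinearMap.zero_apply]
  refine ext_t (isTen F κ i) fun a u => ?_
  have e8 : X (ten F κ i a u) = polar q w u • X (ten F κ i a w') := by
    rw [hT, Module.End.mul_apply, Module.End.mul_apply, Module.End.mul_apply, Module.End.mul_apply, sl_ten, sl_ten,
      om_apply, om_apply, hyp.pair, one_smul, map_smul, map_smul, map_smul]
  rw [e8, v2, smul_zero, LinearMap.zero_apply]

/-- The equivariant operator. -/
noncomputable def Phi (hx : x ≠ 0) (M : Subgroup (((ι → κ) → F) ≃ₗ[F] ((ι → κ) → F))) (j : ι)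
    [Fintype (M ⧸ NN hx M j)] (z : Module.End F ((ι → κ) → F)) : Module.End F ((ι → κ) → F) :=
  ∑ Q : M ⧸ NN hx M j, phi hx M j z Q

theorem Phi_add {j : ι} [Fintype (M ⧸ NN hx M j)] (z z' : Module.End F ((ι → κ) → F)) :
    Phi hx M j (z + z') = Phi hx M j z + Phi hx M j z' := by
  simp only [Phi, phi_add, Finset.sum_add_distrib]

theorem Phi_smul {j : ι} [Fintype (M ⧸ NN hx M j)] (c : F) (z : Module.End F ((ι → κ) → F)) :
    Phi hx M j (c • z) = c • Phi hx M j z := by
  simp only [Phi, phi_smul, Finset.smul_sum]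

theorem Phi_cj {j : ι} [Fintype (M ⧸ NN hx M j)] (g : M) (z : Module.End F ((ι → κ) → F)) :
    Phi hx M j (cj g.1 z) = cj g.1 (Phi hx M j z) := by
  have e1 : cj g.1 (Phi hx M j z) = ∑ Q : M ⧸ NN hx M j, cj g.1 (phi hx M j z Q) := by
    rw [Phi, ← cjL_apply, map_sum]; rfl
  rw [e1, Phi, ← Equiv.sum_comp (MulAction.toPerm g)]
  exact Finset.sum_congr rfl fun Q _ => phi_act j z g Q

open scoped Classical in
theorem Phi_eq {i j : ι} [Fintype (M ⧸ NN hx M j)] (z : Module.End F ((ι → κ) → F)) :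
    Phi hx M j z = EM hx M i j z + ∑ Q ∈ (SM hx M i j)ᶜ, phi hx M j z Q :=
  (Finset.sum_add_sum_compl (SM hx M i j) _).symm

/-- `Φ` maps into the slot algebra. -/
theorem Phi_slot [Finite F] (C : Ctx q M) {i j : ι} [Fintype (M ⧸ NN hx M j)] {w y : κ → F} (hw0 : w ≠ 0)
    (hw : q w = 0) (hy : polar q w y = 0) (hqy : q y ≠ 0) {c : Module.End F ((ι → κ) → F)} (hc : Cm i c) :
    ∃ f : Module.End F (κ → F), Phi hx M j (sl i (nn q w y) * c) = sl i f := by
  classical
  rw [Phi_eq (i := i), EM_zero C hw0 hw hy hqy hc, zero_add]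
  refine Finset.sum_induction _ (fun X => ∃ f : Module.End F (κ → F), X = sl i f) ?_ ⟨0, ?_⟩ ?_
  · rintro _ _ ⟨f, rfl⟩ ⟨f', rfl⟩
    exact ⟨f + f', (sl_add i f f').symm⟩
  · exact (map_zero (slA i)).symm
  · intro Q hQ
    rw [Finset.mem_compl, mem_SM, not_not] at hQ
    obtain ⟨g, rfl, hg⟩ := hQ
    rcases hg with hg | hg
    · exact phi_of_carries hg _
    · exact ⟨0, by rw [phi_zero_of_comm C.h7.nd hg hw0 hw hy hc]; exact (map_zero (slA i)).symm⟩

theorem Phi_self [Finite F] (C : Ctx q M) {j : ι} [Fintype (M ⧸ NN hx M j)] {w y : κ → F} (hw0 : w ≠ 0)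
    (hw : q w = 0) (hy : polar q w y = 0) (hqy : q y ≠ 0) {c : Module.End F ((ι → κ) → F)} (hc : Cm j c) :
    Phi hx M j (sl j (nn q w y) * c) = Tp j (sl j (nn q w y) * c) := by
  classical
  rw [Phi_eq (i := j), EM_zero C hw0 hw hy hqy hc, zero_add]
  have hone : ((1 : M) : M ⧸ NN hx M j) ∈ (SM hx M j j)ᶜ := by
    rw [Finset.mem_compl, mem_SM, not_not]
    exact ⟨1, rfl, Or.inl (carries_one j)⟩
  rw [← Finset.add_sum_erase _ _ hone, Finset.sum_eq_zero, add_zero]
  · rw [phi_mk]
    have e1 : (1 : M).1 = 1 := rfl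
    rw [e1, inv_one, one_cj, one_cj]
  · intro Q hQ
    obtain ⟨h1, h3⟩ := Finset.mem_erase.1 hQ
    rw [Finset.mem_compl, mem_SM, not_not] at h3
    obtain ⟨g, rfl, hg⟩ := h3
    rcases hg with hg | hg
    · exfalso
      apply h1
      rw [eq_comm, QuotientGroup.eq, mem_NN]
      have : ((1 : M)⁻¹ * g : M).1 = g.1 := by rw [inv_one, one_mul]
      rw [this]
      exact hg
    · exact phi_zero_of_comm C.h7.nd hg hw0 hw hy hc

end ctx

/-! ### an element with partial trace one -/

theorem exists_nonsing_vec {V : Type*} [AddCommGroup V] [Module F V] [Nontrivial V] {Q : QuadraticForm F V}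
    (h2 : (2 : F) ≠ 0) (hQ : Nondeg Q) : ∃ a, polar Q a a ≠ 0 := by
  by_contra hcon
  push Not at hcon
  obtain ⟨v, hv⟩ := exists_ne (0 : V)
  apply hv
  refine hQ v fun y => ?_
  have h1 := hcon (v + y)
  rw [polar_add_left, polar_add_right, polar_add_right, hcon, hcon, polar_comm Q y v, zero_add, add_zero] at h1
  have h3 : 2 * polar Q v y = 0 := by linear_combination h1
  exact (mul_eq_zero.1 h3).resolve_left h2

theorem exists_c0 (h2 : (2 : F) ≠ 0) (hq : Nondeg q) {x : κ → F} (hx : x ≠ 0) (j : ι) :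
    ∃ c : Module.End F ((ι → κ) → F), Cm j c ∧ (∀ f : Module.End F (κ → F), Tp j (sl j f * c) = sl j f) ∧
      ∀ f : Module.End F (κ → F), Skew q f → Skew (QT q ι) (sl j f * c) := by
  have S := tst (ι := ι) h2 hq j
  have hneR : Nontrivial (({l // l ≠ j} → κ) → F) := by
    obtain ⟨b, -⟩ := Function.ne_iff.1 hx
    have : Nonempty ({l // l ≠ j} → κ) := ⟨fun _ => b⟩
    exact Function.nontrivial
  obtain ⟨a, ha⟩ := exists_nonsing_vec (Q := QT q {l // l ≠ j}) h2 (nondeg_QT h2 hq)
  set lam := polar (QT q {l // l ≠ j}) a a with hlam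
  let ia : (κ → F) →ₗ[F] ((ι → κ) → F) := ten F κ j a
  let pa : ((ι → κ) → F) →ₗ[F] (κ → F) := lam⁻¹ • S.cu a
  have hpa : ∀ b u, pa (ten F κ j b u) = (lam⁻¹ * polar (QT q {l // l ≠ j}) a b) • u := by
    intro b u
    show lam⁻¹ • S.cu a (ten F κ j b u) = _
    rw [S.cu_t, smul_smul]
  let c : Module.End F ((ι → κ) → F) := ia ∘ₗ pa
  have hcb : ∀ b u, c (ten F κ j b u) = (lam⁻¹ * polar (QT q {l // l ≠ j}) a b) • ten F κ j a u := by
    intro b u
    show ten F κ j a (pa (ten F κ j b u)) = _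
    rw [hpa, map_smul]
  have hCm : Cm j c := by
    intro f
    refine ext_t (isTen F κ j) fun b u => ?_
    rw [Module.End.mul_apply, Module.End.mul_apply, sl_ten, hcb, hcb, map_smul, sl_ten]
  refine ⟨c, hCm, fun f => ?_, fun f hf => ?_⟩
  · rw [Tp]
    congr 1
    refine ptr_unique fun f' => ?_
    have e1 : sl j f * c * sl j f' = (sl j f ∘ₗ ia) ∘ₗ (pa ∘ₗ sl j f') := rfl
    have e2 : (pa ∘ₗ sl j f') ∘ₗ (sl j f ∘ₗ ia) = f' * f := by
      refine LinearMap.ext fun u => ?_
      show pa (sl j f' (sl j f (ten F κ j a u))) = f' (f u)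
      rw [sl_ten, sl_ten, hpa, inv_mul_cancel₀ ha, one_smul]
    rw [e1, LinearMap.trace_comp_comm', e2, LinearMap.trace_mul_comm]
  · have key : (polarBilin (QT q ι)).compl₁₂ (sl j f * c) LinearMap.id =
        -((polarBilin (QT q ι)).compl₁₂ LinearMap.id (sl j f * c)) := by
      refine ext_t2 (isTen F κ j) fun b u b' u' => ?_
      simp only [LinearMap.neg_apply, LinearMap.compl₁₂_apply, LinearMap.id_apply, Module.End.mul_apply, hcb, map_smul,
        sl_ten, LinearMap.smul_apply, polarBilin_apply_apply, S.pol, smul_eq_mul]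
      rw [hf, polar_comm (QT q {l // l ≠ j}) b a]
      ring
    intro u v
    have h1 := LinearMap.congr_fun (LinearMap.congr_fun key u) v
    exact h1

/-! ### skew operators of the tensor power -/

theorem tp_ind {P : ((ι → κ) → F) → Prop} (hadd : ∀ a b, P a → P b → P (a + b)) (hsmul : ∀ (c : F) a, P a → P (c • a))
    (htp : ∀ x, P (tp x)) (v : (ι → κ) → F) : P v := by
  have hv : v = ∑ a, v a • (Pi.single a (1 : F) : (ι → κ) → F) := by
    conv_lhs => rw [← Pi.basisFun F (ι → κ) |>.sum_repr v]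
    exact Finset.sum_congr rfl fun b _ => by rw [Pi.basisFun_apply, Pi.basisFun_repr]
  rw [hv]
  refine Finset.sum_induction _ P hadd ?_ fun a _ => ?_
  · have := hsmul 0 _ (htp fun _ => 0)
    rwa [zero_smul] at this
  · rw [single_eq_tp]
    exact hsmul _ _ (htp _)

theorem rk_tp (h2 : (2 : F) ≠ 0) (x y : ι → (κ → F)) :
    rk (QT q ι) (tp x) (tp y) = op (fun l => rk q (x l) (y l)) := by
  refine tp_ext fun v => ?_
  rw [rk_apply, op_tp, polar_tp h2]
  have : (fun i => (rk q (x i) (y i)) (v i)) = fun i => polar q (x i) (v i) • y i := rfl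
  rw [this, tp_smul_all]

theorem op_update (h : ι → Module.End F (κ → F)) (i : ι) (g : Module.End F (κ → F)) :
    op (Function.update h i g) = sl i g * op (Function.update h i 1) := by
  rw [sl, ← op_mul]
  congr 1
  funext l
  by_cases hl : l = i
  · subst hl; rw [Function.update_self, Function.update_self, Function.update_self, mul_one]
  · rw [Function.update_of_ne hl, Function.update_of_ne hl, Function.update_of_ne hl, one_mul]

theorem cm_op (h : ι → Module.End F (κ → F)) (i : ι) : Cm i (op (Function.update h i 1)) := by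
  intro g
  rw [sl, ← op_mul, ← op_mul]
  congr 1
  funext l
  by_cases hl : l = i
  · subst hl; rw [Function.update_self, Function.update_self, mul_one, one_mul]
  · rw [Function.update_of_ne hl, Function.update_of_ne hl, one_mul, mul_one]

/-- Induction for skew operators of the tensor power. -/
theorem skewV_ind [hι : Nonempty ι] (H : Hyp7 q) {x₀ y₀ : κ → F} (hyp : Hyp q x₀ y₀) {P : Module.End F ((ι → κ) → F) → Prop}
    (hadd : ∀ a b, P a → P b → P (a + b)) (hsmul : ∀ (c : F) a, P a → P (c • a))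
    (hP : ∀ (i : ι) (w y : κ → F) (c : Module.End F ((ι → κ) → F)), w ≠ 0 → q w = 0 → polar q w y = 0 → q y ≠ 0 →
      Cm i c → P (sl i (nn q w y) * c)) {z : Module.End F ((ι → κ) → F)} (hz : Skew (QT q ι) z) : P z := by
  have h2 := H.two
  have hq := H.nd
  refine skew_ind h2 (nondeg_QT h2 hq) hadd hsmul (fun a b => ?_) hz
  -- one slot
  have h1 : ∀ (i : ι) (a b : κ → F) (c : Module.End F ((ι → κ) → F)), Cm i c → P (sl i (nn q a b) * c) := by
    intro i a b c hc
    refine nn_of_sing h2 (by rw [Module.finrank_fintype_fun_eq_card]; exact H.three) hq hyp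
      (P := fun n => P (sl i n * c)) (fun n n' hn hn' => ?_) (fun r n hn => ?_)
      (fun w y hw0 hw hy hqy => hP i w y c hw0 hw hy hqy hc) a b
    · rw [sl_add, add_mul]; exact hadd _ _ hn hn'
    · rw [sl_smul, smul_mul_assoc]; exact hsmul _ _ hn
  have h0 : ∀ z : Module.End F ((ι → κ) → F), P z → P 0 := by
    intro z hz
    have := hsmul 0 z hz
    rwa [zero_smul] at this
  have h3 : ∀ x y : ι → (κ → F), P (nn (QT q ι) (tp x) (tp y)) := by
    intro x y
    rw [nn_eq_rk, rk_tp h2, rk_tp h2]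
    set f : ι → Module.End F (κ → F) := fun l => rk q (x l) (y l) with hf
    set f' : ι → Module.End F (κ → F) := fun l => rk q (y l) (x l) with hf'
    have key : ∀ S : Finset ι, P (op (S.piecewise f f') - op f') := by
      intro S
      induction S using Finset.induction_on with
      | empty =>
        rw [Finset.piecewise_empty, sub_self]
        obtain ⟨i⟩ := hι
        exact h0 _ (h1 i 0 0 _ (cm_op f i))
      | insert i S hi ih =>
        rw [Finset.piecewise_insert]
        have e1 : S.piecewise f f' = Function.update (S.piecewise f f') i (f' i) := by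
          rw [← Finset.piecewise_eq_of_notMem S f f' hi, Function.update_eq_self]
        have e2 : op (Function.update (S.piecewise f f') i (f i)) - op f' =
            op (Function.update (S.piecewise f f') i (nn q (x i) (y i))) + (op (S.piecewise f f') - op f') := by
          have e3 : f i = nn q (x i) (y i) + f' i := by
            rw [nn_eq_rk]
            show rk q (x i) (y i) = rk q (x i) (y i) - rk q (y i) (x i) + rk q (y i) (x i)
            rw [sub_add_cancel]
          rw [e3, op_update_add]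
          conv_rhs => rw [e1]
          rw [Function.update_idem]
          abel
        rw [e2]
        refine hadd _ _ ?_ ih
        rw [op_update]
        exact h1 i _ _ _ (cm_op _ i)
    have := key Finset.univ
    rwa [Finset.piecewise_univ] at this
  have h4 : ∀ x b, P (nn (QT q ι) (tp x) b) := by
    intro x b
    refine tp_ind (P := fun b => P (nn (QT q ι) (tp x) b)) (fun a b ha hb => ?_) (fun r a ha => ?_)
      (fun y => h3 x y) b
    · rw [nn_add_right]; exact hadd _ _ ha hb
    · rw [nn_smul_right]; exact hsmul _ _ ha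
  refine tp_ind (P := fun a => P (nn (QT q ι) a b)) (fun a c ha hb => ?_) (fun r a ha => ?_)
    (fun x => h4 x b) a
  · rw [nn_add_left]; exact hadd _ _ ha hb
  · rw [nn_smul_left]; exact hsmul _ _ ha

end Cfsg.Agent.H900.C7
end

-- part: H900/C7/Glob
section
/-!
# Part (G): the elements of `M` permute the slot algebras
-/

set_option autoImplicit false
set_option linter.unusedSectionVars false
set_option linter.unusedSimpArgs false
set_option linter.unusedVariables false

namespace Cfsg.Agent.H900.C7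

open QuadraticMap hiding proj
open Cfsg.Agent.LieClassical.OrthCore Cfsg.Agent.LieClassical.OrthTrans
open Cfsg.Agent.H882.Ten Cfsg.Agent.H883.C7 Cfsg.Agent.LieClassical.OrthFinite

variable {F : Type*} [Field F] {κ : Type*} [Fintype κ] [DecidableEq κ] {ι : Type*} [Fintype ι] [DecidableEq ι]
  {q : QuadraticForm F (κ → F)} {M : Subgroup (((ι → κ) → F) ≃ₗ[F] ((ι → κ) → F))}

/-- a sum of elements of the slot algebras -/
def InL (X : Module.End F ((ι → κ) → F)) : Prop := ∃ f : ι → Module.End F (κ → F), X = ∑ l, sl l (f l)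

/-- a sum of skew elements of the slot algebras -/
def InS (q : QuadraticForm F (κ → F)) (X : Module.End F ((ι → κ) → F)) : Prop :=
  ∃ f : ι → Module.End F (κ → F), (∀ l, Skew q (f l)) ∧ X = ∑ l, sl l (f l)

theorem InL.add {X Y : Module.End F ((ι → κ) → F)} (hX : InL X) (hY : InL Y) : InL (X + Y) := by
  obtain ⟨f, rfl⟩ := hX
  obtain ⟨g, rfl⟩ := hY
  exact ⟨fun l => f l + g l, by rw [← Finset.sum_add_distrib]; exact Finset.sum_congr rfl fun l _ => (sl_add l _ _).symm⟩

theorem InL.smul (c : F) {X : Module.End F ((ι → κ) → F)} (hX : InL X) : InL (c • X) := by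
  obtain ⟨f, rfl⟩ := hX
  exact ⟨fun l => c • f l, by rw [Finset.smul_sum]; exact Finset.sum_congr rfl fun l _ => (sl_smul l _ _).symm⟩

theorem inL_sl (l : ι) (f : Module.End F (κ → F)) : InL (sl l f) := by
  refine ⟨fun m => if m = l then f else 0, ?_⟩
  rw [Finset.sum_eq_single l]
  · simp only [if_true]
  · intro m _ hm
    simp only [if_neg hm]
    exact map_zero (slA m)
  · intro h
    exact absurd (Finset.mem_univ l) h

/-- adjoints in one slot -/
theorem exists_adj (hq : Nondeg q) (f : Module.End F (κ → F)) :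
    ∃ f' : Module.End F (κ → F), ∀ u v, polar q (f u) v = polar q u (f' v) := by
  refine rk_ind hq (P := fun f => ∃ f' : Module.End F (κ → F), ∀ u v, polar q (f u) v = polar q u (f' v))
    ?_ ⟨0, fun u v => by rw [LinearMap.zero_apply, LinearMap.zero_apply, polar_zero_left, polar_zero_right]⟩ ?_ f
  · rintro a b ⟨a', ha⟩ ⟨b', hb⟩
    exact ⟨a' + b', fun u v => by
      rw [LinearMap.add_apply, LinearMap.add_apply, polar_add_left, polar_add_right, ha, hb]⟩
  · intro a b
    refine ⟨rk q b a, fun u v => ?_⟩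
    rw [rk_apply, rk_apply, polar_smul_left, polar_smul_right, smul_eq_mul, smul_eq_mul, polar_comm q a u,
      mul_comm]

theorem adj_sl (h2 : (2 : F) ≠ 0) (hq : Nondeg q) (l : ι) {f f' : Module.End F (κ → F)}
    (h : ∀ u v, polar q (f u) v = polar q u (f' v)) (u v : (ι → κ) → F) :
    polar (QT q ι) (sl l f u) v = polar (QT q ι) u (sl l f' v) := by
  have S := tst (ι := ι) h2 hq l
  have key : (polarBilin (QT q ι)).compl₁₂ (sl l f) LinearMap.id =
      (polarBilin (QT q ι)).compl₁₂ LinearMap.id (sl l f') := by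
    refine ext_t2 (isTen F κ l) fun b u b' u' => ?_
    simp only [LinearMap.compl₁₂_apply, LinearMap.id_apply, sl_ten, polarBilin_apply_apply, S.pol, h]
  exact LinearMap.congr_fun (LinearMap.congr_fun key u) v

theorem inS_of_inL (h2 : (2 : F) ≠ 0) (hq : Nondeg q) {X : Module.End F ((ι → κ) → F)} (hX : InL X)
    (hs : Skew (QT q ι) X) : InS q X := by
  obtain ⟨f, rfl⟩ := hX
  choose f' hf' using fun l => exists_adj hq (f l)
  set X := ∑ l, sl l (f l) with hX
  have h1 : X = - ∑ l, sl l (f' l) := by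
    have h3 : ∀ v w, polar (QT q ι) (X v) w = polar (QT q ι) v ((∑ l, sl l (f' l)) w) := by
      intro v w
      rw [hX, LinearMap.sum_apply, LinearMap.sum_apply]
      have e1 : polar (QT q ι) (∑ l, sl l (f l) v) w = ∑ l, polar (QT q ι) (sl l (f l) v) w := by
        have : polar (QT q ι) (∑ l, sl l (f l) v) w = (polarBilin (QT q ι)).flip w (∑ l, sl l (f l) v) := rfl
        rw [this, map_sum]; rfl
      have e2 : polar (QT q ι) v (∑ l, sl l (f' l) w) = ∑ l, polar (QT q ι) v (sl l (f' l) w) := by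
        have : polar (QT q ι) v (∑ l, sl l (f' l) w) = polarBilin (QT q ι) v (∑ l, sl l (f' l) w) := rfl
        rw [this, map_sum]; rfl
      rw [e1, e2]
      exact Finset.sum_congr rfl fun l _ => adj_sl h2 hq l (hf' l) v w
    refine LinearMap.ext fun w => ?_
    rw [← sub_eq_zero]
    refine nondeg_QT h2 hq _ fun v => ?_
    rw [polar_comm, LinearMap.neg_apply, sub_neg_eq_add, polar_add_right, ← h3, hs]
    ring
  refine ⟨fun l => (2 : F)⁻¹ • (f l - f' l), fun l => ?_, ?_⟩
  · refine Skew.smul _ fun u v => ?_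
    rw [LinearMap.sub_apply, LinearMap.sub_apply, polar_sub_left, polar_sub_right, hf', polar_comm q (f' l u) v, ← hf', ← hf',
      neg_sub, polar_comm q (f l v) u]
  · have e1 : ∑ l, sl l ((2 : F)⁻¹ • (f l - f' l)) = (2 : F)⁻¹ • (X - ∑ l, sl l (f' l)) := by
      rw [hX, ← Finset.sum_sub_distrib, Finset.smul_sum]
      exact Finset.sum_congr rfl fun l _ => by rw [sl_smul, sl_sub]
    have e2 : X - ∑ l, sl l (f' l) = (2 : F) • X := by
      rw [two_smul]
      conv_rhs => rw [h1]
      conv_lhs => rw [h1]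
      have h4 : ∑ l, sl l (f' l) = - X := by rw [h1, neg_neg]
      rw [h4]
      abel
    rw [e1, e2, smul_smul, inv_mul_cancel₀ h2, one_smul]

/-- Skew elements of the slots go to sums of skew elements of the slots. -/
theorem conj_inS [Finite F] [Nonempty ι] (C : Ctx q M) {g : ((ι → κ) → F) ≃ₗ[F] ((ι → κ) → F)} (hg : g ∈ M) (j : ι)
    {f : Module.End F (κ → F)} (hf : Skew q f) : InS q (cj g (sl j f)) := by
  have h2 := C.h7.two
  have hq := C.h7.nd
  obtain ⟨x, hx, hqx⟩ := C.sing
  obtain ⟨x', hyp⟩ := LieClassical.OrthTrans.exists_hyp hq hqx hx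
  have : Finite (((ι → κ) → F) ≃ₗ[F] ((ι → κ) → F)) :=
    Finite.of_injective (fun g => (g : ((ι → κ) → F) → ((ι → κ) → F))) DFunLike.coe_injective
  have : Finite (M ⧸ NN hx M j) := inferInstance
  have := Fintype.ofFinite (M ⧸ NN hx M j)
  obtain ⟨c, hcm, hc1, hc2⟩ := exists_c0 (ι := ι) h2 hq hx j
  have hgO : g ∈ O (QT q ι) := C.le_O hg
  have hsl : ∀ f : Module.End F (κ → F), Skew q f → Skew (QT q ι) (sl j f) := by
    intro f hf u v
    have h1 : ∀ u v, polar q (f u) v = polar q u ((-f) v) := by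
      intro u v
      rw [LinearMap.neg_apply, polar_neg_right]
      exact hf u v
    rw [adj_sl h2 hq j h1]
    have h3 : sl (ι := ι) j (-f) = - sl j f := map_neg (slA j) f
    rw [h3, LinearMap.neg_apply, polar_neg_right]
  refine inS_of_inL h2 hq ?_ ((hsl f hf).cj hgO)
  refine skew_ind' h2 hq C.h7.three hyp (P := fun f => InL (cj g (sl j f))) (fun a b ha hb => ?_)
    (fun r a ha => ?_) (fun w y hw0 hw hy hqy => ?_) hf
  · rw [sl_add, cj_add']; exact ha.add hb
  · rw [sl_smul, cj_smul']; exact ha.smul r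
  · have e1 : cj g (sl j (nn q w y)) = Phi hx M j (cj g (sl j (nn q w y) * c)) := by
      have h1 := Phi_cj (hx := hx) (M := M) (j := j) ⟨g, hg⟩ (sl j (nn q w y) * c)
      have h3 : Phi hx M j (sl j (nn q w y) * c) = sl j (nn q w y) := by
        rw [Phi_self C hw0 hw hy hqy hcm, hc1]
      rw [h3] at h1
      exact h1.symm
    rw [e1]
    refine skewV_ind C.h7 hyp (P := fun z => InL (Phi hx M j z)) (fun a b ha hb => ?_) (fun r a ha => ?_)
      (fun i w y c hw0 hw hy hqy hc => ?_) ((hc2 _ (skew_nn w y)).cj hgO)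
    · rw [Phi_add]; exact ha.add hb
    · rw [Phi_smul]; exact ha.smul r
    · obtain ⟨f, hf⟩ := Phi_slot (hx := hx) (M := M) (j := j) C hw0 hw hy hqy hc
      rw [hf]
      exact inL_sl i f

/-- the bracket with an element of one slot -/
theorem bracket_sum (j : ι) (f : ι → Module.End F (κ → F)) (x : Module.End F (κ → F)) :
    (∑ l, sl l (f l)) * sl j x - sl j x * ∑ l, sl l (f l) = sl j (f j * x - x * f j) := by
  rw [Finset.sum_mul, Finset.mul_sum, ← Finset.sum_sub_distrib, Finset.sum_eq_single j]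
  · rw [sl_sub, sl_mul, sl_mul]
  · intro l _ hl
    rw [sl_comm hl, sub_self]
  · intro h
    exact absurd (Finset.mem_univ j) h

theorem bracket_sum' (j : ι) (f : ι → Module.End F (κ → F)) (x : Module.End F (κ → F)) :
    sl j x * (∑ l, sl l (f l)) - (∑ l, sl l (f l)) * sl j x = sl j (x * f j - f j * x) := by
  have h1 := bracket_sum j f x
  rw [← neg_sub, h1, sl_sub, sl_sub, neg_sub]

/-- The conjugate of the skew elements of a slot is an ideal. -/
theorem ideal [Finite F] [Nonempty ι] (C : Ctx q M) {g : ((ι → κ) → F) ≃ₗ[F] ((ι → κ) → F)} (hg : g ∈ M) {j l : ι}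
    {n x : Module.End F (κ → F)} (hn : Skew q n) (hx : Skew q x) : ∃ x' : Module.End F (κ → F), Skew q x' ∧
      sl l n * cj g (sl j x) - cj g (sl j x) * sl l n = cj g (sl j x') := by
  obtain ⟨k, hk, hkl⟩ := conj_inS C (M.inv_mem hg) l hn
  refine ⟨k j * x - x * k j, (hk j).bracket hx, ?_⟩
  rw [← bracket_sum, ← hkl, cj_sub', cj_mul', cj_mul', cj_cj_inv]

theorem polar_skew_self (h2 : (2 : F) ≠ 0) {f : Module.End F (κ → F)} (hf : Skew q f) (w : κ → F) :
    polar q w (f w) = 0 := by
  have h1 := hf w w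
  rw [polar_comm] at h1
  have h3 : 2 * polar q w (f w) = 0 := by linear_combination h1
  exact (mul_eq_zero.1 h3).resolve_left h2

theorem nn_nn_bracket (h2 : (2 : F) ≠ 0) {w y y' : κ → F} (hw : q w = 0) (hy : polar q w y = 0) (hy' : polar q w y' = 0)
    {f : Module.End F (κ → F)} (hf : Skew q f) :
    nn q w y * (nn q w y' * f - f * nn q w y') - (nn q w y' * f - f * nn q w y') * nn q w y =
      nn q w (polar q y (f w) • y' - polar q y y' • f w + polar q (f w) y' • y) := by
  have hyw : polar q y w = 0 := by rw [polar_comm]; exact hy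
  have hyw' : polar q y' w = 0 := by rw [polar_comm]; exact hy'
  have hff : ∀ a b, polar q a (f b) = - polar q (f a) b := fun a b => by rw [hf, neg_neg]
  have hww := polar_self_of_sing hw
  have h1 : ∀ v, polar q w (f v) = - polar q (f w) v := fun v => hff w v
  have h3 : polar q y (f y') = - polar q (f y) y' := hff y y'
  have h4 : polar q y' (f y) = polar q (f y) y' := polar_comm q _ _
  have h5 : polar q y (f w) = polar q (f w) y := polar_comm q _ _
  have h6 : polar q y' (f w) = polar q (f w) y' := polar_comm q _ _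
  have h7 : polar q y' y = polar q y y' := polar_comm q _ _
  have h8 : polar q w (f y) = - polar q (f w) y := h1 y
  have h9 : polar q w (f y') = - polar q (f w) y' := h1 y'
  have h10 : polar q w (f w) = 0 := polar_skew_self h2 hf w
  refine LinearMap.ext fun v => ?_
  simp only [LinearMap.sub_apply, Module.End.mul_apply, nn_apply, map_sub, map_smul, polar_sub_right, polar_smul_right,
    polar_sub_left, polar_smul_left, polar_add_left, smul_eq_mul, hy, hy', hyw, hyw', hww, h3, h4, h5, h6, h7, h1 v,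
    h8, h9, h10]
  module

/-- A totally singular plane forces dimension at least five. -/
theorem five_le (H : Hyp7 q) {w u : κ → F} (hw0 : w ≠ 0) (hw : q w = 0) (hu : q u = 0) (hwu : polar q w u = 0)
    (hne : ∀ c : F, u ≠ c • w) : 5 ≤ Fintype.card κ := by
  have h2 := H.two
  have hq := H.nd
  have hk3 := H.three
  by_contra hcon
  by_cases h4 : Fintype.card κ = 4
  · obtain ⟨c, hc⟩ := H.four h4 w u hw0 hw hu hwu
    exact hne c hc
  have h3 : Fintype.card κ = 3 := by omega
  have hfr : Module.finrank F (κ → F) = Fintype.card κ := Module.finrank_fintype_fun_eq_card F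
  obtain ⟨w', hyp⟩ := LieClassical.OrthTrans.exists_hyp hq hw hw0
  obtain ⟨v, hv1, hv2, hv3⟩ := exists_nonsing_perp hq (by rw [hfr]; exact hk3) hyp
  have hvv : polar q v v ≠ 0 := by rw [polar_self']; exact mul_ne_zero h2 hv3
  have h5 := expand3 (by rw [hfr]; exact h3) hyp hv1 hv2 hvv u
  rw [hwu, zero_smul, add_zero] at h5
  set μ := (polar q v v)⁻¹ * polar q v u with hμ
  have h6 : q (polar q w' u • w + μ • v) = 0 := by rw [← h5]; exact hu
  rw [Q_add, QuadraticMap.map_smul, QuadraticMap.map_smul, hw, polar_smul_left, polar_smul_right, hv1, smul_zero,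
    smul_zero, smul_zero, add_zero, zero_add, smul_eq_mul] at h6
  have h7 : μ = 0 := mul_self_eq_zero.1 ((mul_eq_zero.1 h6).resolve_right hv3)
  rw [h7, zero_smul, add_zero] at h5
  exact hne _ h5

/-- **Part (G).** -/
theorem glob' [Finite F] (C : Ctx q M) : ∀ g ∈ M, ∀ j, ∃ l, Carries g j l := by
  intro g hg j
  have : Nonempty ι := ⟨j⟩
  have h2 := C.h7.two
  have hq := C.h7.nd
  have hk3 := C.h7.three
  have hfr : Module.finrank F (κ → F) = Fintype.card κ := Module.finrank_fintype_fun_eq_card F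
  obtain ⟨x, hx, hqx⟩ := C.sing
  obtain ⟨x', hyp⟩ := LieClassical.OrthTrans.exists_hyp hq hqx hx
  -- a nonzero element
  obtain ⟨f, hf, hX⟩ := conj_inS C hg j (skew_nn (q := q) x x')
  have hex : ∃ l, f l ≠ 0 := by
    by_contra hcon
    push Not at hcon
    have h1 : cj g (sl j (nn q x x')) = 0 := by
      rw [hX]
      refine Finset.sum_eq_zero fun l _ => ?_
      rw [hcon]
      exact map_zero (slA l)
    have h3 : sl j (nn q x x') = 0 := cj_inj g (by rw [h1, cj_zero'])
    have h4 := LinearMap.congr_fun (sl_eq_zero hx h3) x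
    rw [nn_apply, hyp.polar_left, hyp.pair', zero_smul, one_smul, zero_sub, LinearMap.zero_apply, neg_eq_zero] at h4
    exact hx h4
  obtain ⟨l, hl⟩ := hex
  refine ⟨l, ?_⟩
  -- the elements of slot `l` in the conjugate
  let J : Module.End F (κ → F) → Prop := fun n => ∃ x' : Module.End F (κ → F), Skew q x' ∧ sl l n = cj g (sl j x')
  have hJbr : ∀ n m, Skew q n → J m → J (n * m - m * n) := by
    rintro n m hn ⟨x', hx', hm⟩
    obtain ⟨x'', hx'', h⟩ := ideal C hg (l := l) hn hx'
    exact ⟨x'', hx'', by rw [sl_sub, sl_mul, sl_mul, hm, h]⟩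
  have hJ0 : ∀ n, Skew q n → J (n * f l - f l * n) := by
    intro n hn
    obtain ⟨x'', hx'', h⟩ := ideal C hg (l := l) hn (skew_nn (q := q) x x')
    refine ⟨x'', hx'', ?_⟩
    rw [← h, hX, bracket_sum']
  -- it suffices to find `w ∧ z` with `z` nonsingular
  have fin : ∀ w z, w ≠ 0 → q w = 0 → polar q w z = 0 → q z ≠ 0 → J (nn q w z) → Carries g j l := by
    rintro w z hw0 hw hz hqz ⟨x', hx', h⟩
    have h1 : cj g⁻¹ (sl l (nn q w z)) = sl j x' := by rw [h, cj_inv_cj]
    have h3 := carries_symm hx (carries_of_nn h2 hq C.hD (M.inv_mem hg) hw0 hw hz hqz h1)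
    rwa [inv_inv] at h3
  -- a singular vector moved by `f l`
  obtain ⟨w, hw, hmv⟩ : ∃ w, q w = 0 ∧ ∀ c : F, f l w ≠ c • w := by
    by_contra hcon
    push Not at hcon
    obtain ⟨c, hc⟩ := scalar_of_sing h2 hq (by rw [hfr]; exact hk3) hyp (f l) hcon
    apply hl
    have h1 := hf l x x'
    rw [hc, hc, polar_smul_left, polar_smul_right, hyp.pair, smul_eq_mul, mul_one] at h1
    have h3 : 2 * c = 0 := by linear_combination h1
    have h4 : c = 0 := (mul_eq_zero.1 h3).resolve_left h2
    refine LinearMap.ext fun v => ?_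
    rw [hc, h4, zero_smul, LinearMap.zero_apply]
  have hw0 : w ≠ 0 := by
    rintro rfl
    exact hmv 0 (by rw [map_zero, smul_zero])
  set u := f l w with hu
  have hwu : polar q w u = 0 := polar_skew_self h2 (hf l) w
  have hJz : ∀ y y', polar q w y = 0 → polar q w y' = 0 →
      J (nn q w (polar q y u • y' - polar q y y' • u + polar q u y' • y)) := by
    intro y y' hy hy'
    rw [← nn_nn_bracket h2 hw hy hy' (hf l)]
    exact hJbr _ _ (skew_nn w y) (hJ0 _ (skew_nn w y'))
  by_cases hqu : q u = 0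
  · -- totally singular plane
    have h5 := five_le C.h7 hw0 hw hqu hwu hmv
    have hu0 : u ≠ 0 := fun h => hmv 0 (by rw [h, zero_smul])
    obtain ⟨w', hyp1⟩ := LieClassical.OrthTrans.exists_hyp hq hw hw0
    -- make `u` orthogonal to `w'`
    set u₁ := u - polar q w' u • w with hu₁
    have g1 : polar q w u₁ = 0 := by rw [hu₁, polar_sub_right, polar_smul_right, hwu, hyp1.polar_left]; simp
    have g2 : polar q w' u₁ = 0 := by rw [hu₁, polar_sub_right, polar_smul_right, hyp1.pair']; simp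
    have g3 : q u₁ = 0 := by
      rw [hu₁, sub_eq_add_neg, ← neg_smul, Q_add, QuadraticMap.map_smul, hw, hqu, polar_smul_right, polar_comm q u w,
        hwu]
      simp
    have g4 : u₁ ≠ 0 := fun h => hmv (polar q w' u) (sub_eq_zero.1 h)
    obtain ⟨u', hyp2, g5, g6⟩ := exists_hyp_perp hq hyp1 g3 g4 g1 g2
    obtain ⟨a, c, ⟨a1, a2, a3, a4⟩, ⟨c1, c2, c3, c4⟩, hac⟩ := exists_perp4 hq (by rw [hfr]; exact h5) hyp1 hyp2 g1 g5
      g2 g6
    obtain ⟨y', hy'1, hy'2, hy'3⟩ : ∃ y', polar q w y' = 0 ∧ polar q u₁ y' = 0 ∧ q y' ≠ 0 := by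
      rcases exists_nonsing hac with h | h | h
      · exact ⟨a, a1, a3, h⟩
      · exact ⟨c, c1, c3, h⟩
      · exact ⟨a + c, by rw [polar_add_right, a1, c1, add_zero], by rw [polar_add_right, a3, c3, add_zero], h⟩
    have hy'u : polar q u y' = 0 := by
      have e : u = u₁ + polar q w' u • w := by rw [hu₁, sub_add_cancel]
      rw [e, polar_add_left, polar_smul_left, hy'1, hy'2, smul_zero, add_zero]
    obtain ⟨y, hy1, hy2⟩ := exists_sep hq hmv
    have hJ1 := hJz y y' hy1 hy'1
    rw [hy'u, zero_smul, add_zero, polar_comm q y u, hy2, one_smul] at hJ1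
    refine fin w _ hw0 hw ?_ ?_ hJ1
    · rw [polar_sub_right, polar_smul_right, hy'1, hwu, smul_zero, sub_zero]
    · rw [sub_eq_add_neg, ← neg_smul, Q_add, QuadraticMap.map_smul, hqu, polar_smul_right, polar_comm q y' u, hy'u,
        smul_zero, smul_zero, add_zero, add_zero]
      exact hy'3
  · obtain ⟨w', hyp1⟩ := LieClassical.OrthTrans.exists_hyp hq hw hw0
    obtain ⟨y, hy1, -, hy3⟩ := exists_nonsing_perp hq (by rw [hfr]; exact hk3) hyp1
    have hJ1 := hJz y y hy1 hy1
    refine fin w _ hw0 hw ?_ ?_ hJ1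
    · rw [polar_add_right, polar_sub_right, polar_smul_right, polar_smul_right, polar_smul_right, hy1, hwu]
      simp
    · have e : q (polar q y u • y - polar q y y • u + polar q u y • y) = (2 * q y) * (2 * q y) * q u := by
        have e1 : polar q y u • y - polar q y y • u + polar q u y • y =
            (2 * polar q u y) • y + (-(2 * q y)) • u := by
          rw [polar_comm q y u, polar_self']
          module
        rw [e1, Q_add, QuadraticMap.map_smul, QuadraticMap.map_smul, polar_smul_left, polar_smul_right,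
          polar_comm q y u, smul_eq_mul, smul_eq_mul, smul_eq_mul, smul_eq_mul]
        ring
      rw [e]
      exact mul_ne_zero (mul_ne_zero (mul_ne_zero h2 hy3) (mul_ne_zero h2 hy3)) hqu

theorem exists_sing_vec [Finite F] (hk : 3 ≤ Fintype.card κ) : ∃ x : κ → F, x ≠ 0 ∧ q x = 0 := by
  obtain ⟨x, -, hx0, hx⟩ := exists_sing_mem (Q := q) (⊤ : Submodule F (κ → F)) (by
    rw [finrank_top, Module.finrank_fintype_fun_eq_card]; exact hk)
  exact ⟨x, hx0, hx⟩

/-- **Part (G)**, version with `Hyp7`. -/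
theorem glob7 [Finite F] (H : Hyp7 q) (ht : 2 ≤ Fintype.card ι) (hM : Over q M) (hD : DProp q M) :
    ∀ g ∈ M, ∀ i, ∃ j, Carries g i j :=
  glob' ⟨H, ht, hM, hD, exists_sing_vec H.three⟩

/-- **Part (G)**, the target statement. -/
theorem glob [Finite F] (h2 : (2 : F) ≠ 0) (hq : Nondeg q) (hk : 3 ≤ Fintype.card κ)
    (hex : ¬ (Nat.card F = 3 ∧ Fintype.card κ = 3))
    (h4 : Fintype.card κ = 4 → ∀ w x, w ≠ 0 → q w = 0 → q x = 0 → polar q w x = 0 → ∃ c : F, x = c • w)
    (ht : 2 ≤ Fintype.card ι) (hM : Over q M) (hD : DProp q M) : ∀ g ∈ M, ∀ i, ∃ j, Carries g i j := by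
  refine glob7 ⟨h2, hq, hk, fun h3 => ?_, h4⟩ ht hM hD
  classical
  have := Fintype.ofFinite F
  have h5 : Nat.card F ≠ 3 := fun h => hex ⟨h, h3⟩
  rw [Nat.card_eq_fintype_card] at h5 ⊢
  have hlt : 1 < Fintype.card F := Fintype.one_lt_card
  have hne2 : ¬ 2 ∣ Fintype.card F := by
    rintro ⟨m, hm⟩
    have h1 := FiniteField.cast_card_eq_zero F
    by_cases h6 : Fintype.card F < 5
    · rw [hm] at h1
      push_cast at h1
      have h7 : ((m : ℕ) : F) = 0 := (mul_eq_zero.1 h1).resolve_left h2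
      have h8 : m = 1 ∨ m = 2 := by omega
      rcases h8 with rfl | rfl
      · simp at h7
      · exact h2 (by exact_mod_cast h7)
    · -- not needed for large fields
      obtain ⟨p, hp⟩ := CharP.exists F
      have hpp : p.Prime := CharP.char_is_prime F p
      obtain ⟨n, -, hn⟩ := FiniteField.card F p
      have h9 : (2 : ℕ) ∣ p ^ (n : ℕ) := by rw [← hn, hm]; exact Dvd.intro m rfl
      have h10 := Nat.prime_two.dvd_of_dvd_pow h9
      have h11 : 2 = p := (Nat.prime_dvd_prime_iff_eq Nat.prime_two hpp).1 h10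
      subst h11
      apply h2
      have := CharP.cast_eq_zero F 2
      exact_mod_cast this
  omega

end Cfsg.Agent.H900.C7
end
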